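import Cfsg.Agent.Classical.PrimeDerangement.UnitaryForm.Small

/-!
Which prime orders are covered by the similitudes of a unitary form inside the special linear group.
-/

set_option autoImplicit false
set_option linter.unusedSectionVars false

namespace CfsgLib.Classical.PrimeDerangement.UnitaryForm

open Cfsg Matrix Module CfsgLib.Unitary

theorem prod_gl_eq (Q m : ℕ) :
    ∃ M, ∏ i : Fin m, (Q ^ m - Q ^ (i : ℕ)) = Q ^ M * ∏ j ∈ Finset.range m, (Q ^ (j + 1) - 1) := by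
  refine ⟨∑ j ∈ Finset.range m, (m - 1 - j), ?_⟩
  rw [Fin.prod_univ_eq_prod_range fun i => Q ^ m - Q ^ i, ← Finset.prod_range_reflect, ← Finset.prod_pow_eq_pow_sum,
    ← Finset.prod_mul_distrib]
  refine Finset.prod_congr rfl fun j hj => ?_
  rw [Finset.mem_range] at hj
  rw [Nat.mul_sub, mul_one, ← pow_add, show m - 1 - j + (j + 1) = m by omega]

theorem sq_pow_sub_one (q j : ℕ) : (q ^ 2) ^ (j + 1) - 1 = (q ^ (j + 1) + 1) * (q ^ (j + 1) - 1) := by
  rw [← pow_mul, mul_comm 2, pow_mul, ← Nat.sq_sub_sq, one_pow]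

variable {F : Type*} [Field F] [Fintype F]

/-- A prime divisor of the index divides some `(-q) ^ i + 1`. -/
theorem exists_exponent {q n r : ℕ} [Fact r.Prime] (hF : Fintype.card F = q ^ 2) (hn : 3 ≤ n) (hrq : ¬ r ∣ q)
    (h : r * Nat.card (SU n F q) ∣ Nat.card (Matrix.SpecialLinearGroup (Fin n) F)) :
    ∃ i, 0 < i ∧ i ≤ n ∧ (-(q : ZMod r)) ^ i = -1 := by
  have hr : r.Prime := Fact.out
  have hq := two_le_q hF
  have hsq : q ^ 2 - 1 = (q - 1) * (q + 1) := by rw [mul_comm, ← Nat.sq_sub_sq, one_pow]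
  set u : ℕ → ℕ := fun j => if Even j then q ^ (j + 1) + 1 else q ^ (j + 1) - 1 with hu
  set w : ℕ → ℕ := fun j => if Even j then q ^ (j + 1) - 1 else q ^ (j + 1) + 1 with hw
  have huw : ∀ j, (q ^ 2) ^ (j + 1) - 1 = u j * w j := fun j => by
    rw [sq_pow_sub_one]
    by_cases hj : Even j <;> simp [hu, hw, hj, mul_comm]
  have hsl := Classical.Linear.card_sl (F := F) n (by omega)
  obtain ⟨M, hM⟩ := prod_gl_eq (q ^ 2) n
  rw [hF, hM, Finset.prod_congr rfl (fun j _ => huw j), Finset.prod_mul_distrib] at hsl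
  have hgu : (q + 1) * Nat.card (SU n F q) = q ^ (n * (n - 1) / 2) * ∏ j ∈ Finset.range n, u j := by
    rw [← card_GU hF, card_GU_eq_mul_card_SU hF (by omega)]
  have h1 : r * ((q - 1) * ((q + 1) * Nat.card (SU n F q))) ∣
      (q ^ 2) ^ M * ((∏ j ∈ Finset.range n, u j) * ∏ j ∈ Finset.range n, w j) := by
    rw [← hsl, hsq, mul_assoc (q - 1), ← mul_assoc r, mul_comm r, mul_assoc (q - 1)]
    refine mul_dvd_mul_left _ ?_
    rw [mul_left_comm]
    exact mul_dvd_mul_left _ h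
  rw [hgu] at h1
  obtain ⟨n', rfl⟩ : ∃ n', n = n' + 1 := ⟨n - 1, by omega⟩
  rw [Finset.prod_range_succ' w] at h1
  have hw0 : w 0 = q - 1 := by simp [hw]
  rw [hw0] at h1
  have hpos : 0 < (q - 1) * ∏ j ∈ Finset.range (n' + 1), u j := by
    refine Nat.mul_pos (by omega) (Finset.prod_pos fun j _ => ?_)
    simp only [hu]
    have : 2 ≤ q ^ (j + 1) := le_trans hq (Nat.le_self_pow (Nat.succ_ne_zero j) q)
    split_ifs <;> omega
  have h2 : r * ((q - 1) * ∏ j ∈ Finset.range (n' + 1), u j) ∣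
      ((q ^ 2) ^ M * ∏ j ∈ Finset.range n', w (j + 1)) * ((q - 1) * ∏ j ∈ Finset.range (n' + 1), u j) :=
    dvd_trans (mul_dvd_mul_left r (mul_dvd_mul_left _ (Dvd.intro_left _ rfl))) (dvd_trans h1 (dvd_of_eq (by ring)))
  rcases hr.dvd_mul.1 (Nat.dvd_of_mul_dvd_mul_right hpos h2) with h3 | h3
  · exact absurd (hr.dvd_of_dvd_pow (hr.dvd_of_dvd_pow h3)) hrq
  obtain ⟨j, hj, hd⟩ := (hr.prime.dvd_finsetProd_iff _).1 h3
  rw [Finset.mem_range] at hj
  refine ⟨j + 1 + 1, by omega, by omega, ?_⟩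
  simp only [hw] at hd
  split_ifs at hd with hev
  · have h4 := (ZMod.natCast_eq_zero_iff _ _).2 hd
    rw [Nat.cast_sub (Nat.one_le_pow _ _ (by omega))] at h4
    push_cast at h4
    rw [hev.add_one.neg_pow]
    linear_combination -h4
  · have h4 := (ZMod.natCast_eq_zero_iff _ _).2 hd
    push_cast at h4
    rw [(Nat.not_even_iff_odd.1 hev).add_one.neg_pow]
    linear_combination h4

theorem covers_iff {p : ℕ} [Fact p.Prime] [CharP F p] {q : ℕ} (hq : Fintype.card F = q) (q₀ : ℕ)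
    (hq₀ : q = q₀ ^ 2) (n : ℕ) (hn : 3 ≤ n) (f : (Fin n → F) → (Fin n → F) → F)
    (hf : Cfsg.Geo.IsUnitaryFormPow q₀ f) (r : ℕ) [Fact r.Prime] (hr : r = 2 ∨ r ≠ p) (hgap : ¬ (n = 6 ∧ r = 3))
    (hΩ : r ∣ (Cfsg.Geo.similarityGroup f).relIndex (Cfsg.Geo.specialLinear (Fin n) F)) :
    (∀ x ∈ Cfsg.Geo.specialLinear (Fin n) F,
      (∃ z : F, ((x ^ r : GL (Fin n) F) : Matrix (Fin n) (Fin n) F) = z • (1 : Matrix (Fin n) (Fin n) F)) →
      (∀ z : F, (x : Matrix (Fin n) (Fin n) F) ≠ z • (1 : Matrix (Fin n) (Fin n) F)) →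
      ∃ g ∈ Cfsg.Geo.specialLinear (Fin n) F, g⁻¹ * x * g ∈ Cfsg.Geo.similarityGroup f) ↔
    ((r = 2 ∧ (p = 2 ∨ padicValNat 2 n ≤ padicValNat 2 (q - 1))) ∨
      ((r = 3 ∨ r = 5) ∧ n = r ∧ padicValNat r (q₀ - 1) = 1)) := by
  classical
  have hF : Fintype.card F = q₀ ^ 2 := hq.trans hq₀
  have hrp : r.Prime := Fact.out
  have hp : p.Prime := Fact.out
  obtain ⟨P, hP⟩ := exists_equiv hF hf
  have hmem : ∀ {g : GL (Fin n) F}, g ∈ Cfsg.Geo.specialLinear (Fin n) F ↔ Matrix.GeneralLinearGroup.det g = 1 :=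
    fun {g} => MonoidHom.mem_ker
  have hconj : ∀ {g : GL (Fin n) F}, g ∈ Cfsg.Geo.specialLinear (Fin n) F →
      ∀ T : GL (Fin n) F, T⁻¹ * g * T ∈ Cfsg.Geo.specialLinear (Fin n) F := fun {g} hg T => by
    rw [hmem] at hg ⊢
    rw [map_mul, map_mul, map_inv, hg, mul_one, inv_mul_cancel]
  -- move everything to the standard form
  have hstd : (∀ x ∈ Cfsg.Geo.specialLinear (Fin n) F,
      (∃ z : F, ((x ^ r : GL (Fin n) F) : Matrix (Fin n) (Fin n) F) = z • (1 : Matrix (Fin n) (Fin n) F)) →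
      (∀ z : F, (x : Matrix (Fin n) (Fin n) F) ≠ z • (1 : Matrix (Fin n) (Fin n) F)) →
      ∃ g ∈ Cfsg.Geo.specialLinear (Fin n) F, g⁻¹ * x * g ∈ Cfsg.Geo.similarityGroup f) ↔ ¬ Witness F n q₀ r := by
    have hscal : ∀ (T y : GL (Fin n) F) (z : F),
        (y : Matrix (Fin n) (Fin n) F) = z • (1 : Matrix (Fin n) (Fin n) F) →
          ((T⁻¹ * y * T : GL (Fin n) F) : Matrix (Fin n) (Fin n) F) = z • (1 : Matrix (Fin n) (Fin n) F) := fun T y z h => by
      rw [Units.val_mul, Units.val_mul, h, Matrix.mul_smul, Matrix.smul_mul, mul_one, ← Units.val_mul, inv_mul_cancel,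
        Units.val_one]
    constructor
    · rintro hall ⟨y, hy, ⟨z, hz⟩, hns, hnc⟩
      obtain ⟨g, hg, hgm⟩ := hall (P * y * P⁻¹) (by simpa using hconj hy P⁻¹) ⟨z, by
        have := hscal P⁻¹ (y ^ r) z hz
        rw [inv_inv] at this
        rwa [conj_pow]⟩
        (fun c hc => hns c (by
          have := hscal P _ c hc
          rwa [show P⁻¹ * (P * y * P⁻¹) * P = y by group] at this))
      refine hnc ⟨P⁻¹ * g * P, hconj hg P, ?_⟩
      rw [show (P⁻¹ * g * P)⁻¹ * y * (P⁻¹ * g * P) = P⁻¹ * (g⁻¹ * (P * y * P⁻¹) * g) * P by group]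
      exact (mem_sim_iff_conj hP _).2 hgm
    · intro hW x hx ⟨z, hz⟩ hns
      by_contra hcon
      refine hW ⟨P⁻¹ * x * P, hconj hx P, ⟨z, ?_⟩, fun c hc => hns c ?_, ?_⟩
      · rw [show P⁻¹ * x * P = P⁻¹ * x * (P⁻¹)⁻¹ by rw [inv_inv], conj_pow, inv_inv]
        exact hscal P _ z hz
      · have := hscal P⁻¹ _ c hc
        rwa [show (P⁻¹)⁻¹ * (P⁻¹ * x * P) * P⁻¹ = x by group] at this
      · rintro ⟨g, hg, hgm⟩
        refine hcon ⟨P * g * P⁻¹, by simpa using hconj hg P⁻¹, (mem_sim_iff_conj hP _).1 ?_⟩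
        rwa [show P⁻¹ * ((P * g * P⁻¹)⁻¹ * x * (P * g * P⁻¹)) * P = g⁻¹ * (P⁻¹ * x * P) * g by group]
  rw [hstd]
  have hn0 : 0 < n := by omega
  have h2iff : p ≠ 2 → (2 : F) ≠ 0 := fun h h' =>
    h ((Nat.prime_dvd_prime_iff_eq hp Nat.prime_two).1 ((CharP.cast_eq_zero_iff F p 2).1 (by exact_mod_cast h')))
  constructor
  · intro hW
    by_contra hcon
    refine hW ?_
    rcases hrp.eq_two_or_odd' with rfl | hrodd
    · have hp2 : p ≠ 2 := fun h => hcon (Or.inl ⟨rfl, Or.inl h⟩)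
      refine witness_two_part hF hn0 (h2iff hp2) fun h => hcon (Or.inl ⟨rfl, Or.inr (hq ▸ h)⟩)
    · have hr2 : r ≠ 2 := fun h => by subst h; exact absurd hrodd (by decide)
      have hrp' : r ≠ p := hr.resolve_left hr2
      have hrF : (r : F) ≠ 0 := fun h =>
        hrp' ((Nat.prime_dvd_prime_iff_eq hp hrp).1 ((CharP.cast_eq_zero_iff F p r).1 h)).symm
      have hrq : ¬ r ∣ q₀ := by
        intro h
        obtain ⟨p', a, hp', hchar, -, hqa⟩ := exists_char hF
        have := CharP.eq F ‹CharP F p› hchar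
        subst this
        exact hrp' ((Nat.prime_dvd_prime_iff_eq hrp hp).1 (hrp.dvd_of_dvd_pow (hqa ▸ h)))
      have hdiv : r * Nat.card (SU n F q₀) ∣ Nat.card (Matrix.SpecialLinearGroup (Fin n) F) := by
        rw [← natCard_GU_inf_specialLinear n q₀, ← natCard_specialLinear n]
        set S := Cfsg.Geo.specialLinear (Fin n) F
        set H := Cfsg.Geo.similarityGroup f
        have hidx : H.relIndex S * Nat.card ↥(H ⊓ S : Subgroup (GL (Fin n) F)) = Nat.card ↥S := by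
          rw [← Subgroup.inf_relIndex_right H S, ← Subgroup.relIndex_bot_left, ← Subgroup.relIndex_bot_left, mul_comm]
          exact Subgroup.relIndex_mul_relIndex _ _ _ bot_le inf_le_right
        rw [← hidx]
        refine mul_dvd_mul hΩ (Subgroup.card_dvd_of_injective
          ({ toFun := fun g => ⟨P * g.1 * P⁻¹, Subgroup.mem_inf.2 ⟨(mem_sim_iff_conj hP _).1 (by
                rw [show P⁻¹ * (P * g.1 * P⁻¹) * P = g.1 by group]
                exact ⟨1, fun u v => by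
                  rw [Units.val_one, one_mul]; exact mem_GU.1 (Subgroup.mem_inf.1 g.2).1 u v⟩),
              by simpa using hconj (Subgroup.mem_inf.1 g.2).2 P⁻¹⟩⟩
             map_one' := Subtype.ext (by simp)
             map_mul' := fun a b => Subtype.ext (by simp [mul_assoc]) } :
            ↥(GU n F q₀ ⊓ S) →* ↥(H ⊓ S : Subgroup (GL (Fin n) F))) fun a b hab => ?_)
        have h := congrArg Subtype.val hab
        exact Subtype.ext (mul_left_cancel (mul_right_cancel h))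
      obtain ⟨i, hi0, hin, hi⟩ := exists_exponent hF hn hrq hdiv
      by_cases hs1 : orderOf (Fintype.card F : ZMod r) = 1
      · obtain ⟨hneg, -⟩ := orderOf_neg hF hr2 hi
        rw [hs1, mul_one] at hneg
        have h2 : (-(q₀ : ZMod r)) = -1 := by
          have hsq : (-(q₀ : ZMod r)) * -(q₀ : ZMod r) = 1 := by
            rw [← sq, ← hneg, pow_orderOf_eq_one]
          refine (mul_self_eq_one_iff.1 hsq).resolve_left fun h => ?_
          rw [h, orderOf_one] at hneg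
          omega
        have hrq1 : r ∣ q₀ - 1 := by
          rw [← ZMod.natCast_eq_zero_iff, Nat.cast_sub (by have := two_le_q hF; omega)]
          rw [neg_inj] at h2
          push_cast
          rw [h2, sub_self]
        exact witness_split hF hr2 hrq1 hn hgap fun h => hcon (Or.inr h)
      · exact witness_orbit hF hr2 hrF hrq hi0 hin hi hs1
  · rintro hcases ⟨x, hx, ⟨z, hz⟩, -, hnc⟩
    rcases hcases with ⟨rfl, hp2⟩ | ⟨h35, hnr, hv⟩
    · by_cases h : p = 2
      · subst h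
        exact hnc (covered_char_two hF hn0 hz)
      · exact hnc (covered_two_odd hF hn0 (h2iff h) (hq ▸ hp2.resolve_left h) hx hz)
    · exact hnc (covered_small hF h35 hnr hv hx hz)

end CfsgLib.Classical.PrimeDerangement.UnitaryForm
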