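import Cfsg.Agent.Classical.PrimeDerangement.UnitaryForm.Reduce
import Cfsg.Agent.Classical.Semisimple.LinearElusive
import Cfsg.Agent.Classical.Semisimple.InvolutionForms

/-!
Similitude normal forms: paired diagonal matrices and scalar multiples of permutation matrices; elements whose
square is scalar.
-/

set_option autoImplicit false
set_option linter.unusedSectionVars false

namespace CfsgLib.Classical.PrimeDerangement.UnitaryForm

open Cfsg Matrix Module CfsgLib.Unitary

variable {F : Type*} [Field F] [Fintype F] {n q : ℕ}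

theorem det_diagU (d : Fin n → Fˣ) : Matrix.GeneralLinearGroup.det (diagU d) = ∏ i, d i := by
  refine Units.ext ?_
  show (diagU d : Matrix (Fin n) (Fin n) F).det = _
  rw [coe_diagU, Matrix.det_diagonal, Units.coe_prod]

/-- A diagonalisable element whose eigenvalues pair to a constant under an involution is covered. -/
theorem covered_paired (hF : Fintype.card F = q ^ 2) (hn : 0 < n) {x g : GL (Fin n) F} {d : Fin n → Fˣ}
    (hx : x * g = g * diagU d) (σ : Equiv.Perm (Fin n)) (hσ : ∀ i, σ (σ i) = i) {c : F}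
    (hc : ∀ i, (d i : F) * (d (σ i) : F) ^ q = c) : Covered q x := by
  classical
  set B : (Fin n → F) → (Fin n → F) → F := fun u v => ∑ i, u i * v (σ i) ^ q with hB
  have hq := two_le_q hF
  have hBu : Cfsg.Geo.IsUnitaryFormPow q B := by
    refine ⟨fun x y v => ?_, fun a x v => ?_, fun v w => ?_, fun v hv => ?_⟩
    · simp only [hB, Pi.add_apply, add_mul, Finset.sum_add_distrib]
    · simp only [hB, Pi.smul_apply, smul_eq_mul, Finset.mul_sum, mul_assoc]
    · simp only [hB]
      rw [sum_pow_q hF]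
      refine Fintype.sum_equiv σ _ _ fun i => ?_
      rw [mul_pow, pow_q_q hF, hσ, mul_comm]
    · obtain ⟨j, hj⟩ := Function.ne_iff.1 hv
      rw [Pi.zero_apply] at hj
      refine ⟨⟨Pi.single (σ j) 1, ?_⟩, ⟨Pi.single (σ j) 1, ?_⟩⟩
      · rw [hB]
        simp only
        rw [Finset.sum_eq_single (σ j) (fun i _ hi => by rw [Pi.single_eq_of_ne hi, zero_mul]) (by simp),
          Pi.single_eq_same, one_mul, hσ]
        exact pow_ne_zero q hj
      · rw [hB]
        simp only
        rw [Finset.sum_eq_single j (fun i _ hi => by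
          rw [Pi.single_eq_of_ne (fun h => hi (σ.injective h)), zero_pow (by omega), mul_zero]) (by simp),
          Pi.single_eq_same, one_pow, mul_one]
        exact hj
  obtain ⟨P, hP⟩ := exists_equiv hF hBu
  have hc0 : c ≠ 0 := by
    rw [← hc ⟨0, hn⟩]
    exact mul_ne_zero (Units.ne_zero _) (pow_ne_zero q (Units.ne_zero _))
  have hd : diagU d ∈ Cfsg.Geo.similarityGroup B := by
    refine ⟨Units.mk0 c hc0, fun u v => ?_⟩
    simp only [hB, coe_diagU, Matrix.mulVec_diagonal, Units.val_mk0, Finset.mul_sum]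
    refine Finset.sum_congr rfl fun i _ => ?_
    rw [mul_pow, ← hc i]
    ring
  have hconj := (mem_sim_iff_conj hP (diagU d)).2 hd
  refine covered_of_gl (g := g * P) (fun t => ?_) ?_
  · refine ⟨g * diagU (Function.update 1 ⟨0, hn⟩ t) * g⁻¹, ?_, ?_⟩
    · rw [show x = g * diagU d * g⁻¹ from eq_mul_inv_of_mul_eq hx]
      simp only [mul_assoc, inv_mul_cancel_left]
      rw [← mul_assoc (diagU _) (diagU d), diagU_comm, mul_assoc]
    · rw [map_mul, map_mul, map_inv, mul_inv_cancel_comm, det_diagU,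
        Finset.prod_update_of_mem (Finset.mem_univ _)]
      simp
  · rwa [show (g * P)⁻¹ * x * (g * P) = P⁻¹ * (g⁻¹ * (x * g)) * P by group, hx, inv_mul_cancel_left]

/-- A scalar multiple of a permutation matrix is covered, provided invariant diagonal matrices have all
determinants. -/
theorem covered_perm (hF : Fintype.card F = q ^ 2) {x g : GL (Fin n) F} (w : Fˣ) (σ : Equiv.Perm (Fin n))
    (hx : x * g = g * (diagU (fun _ => w) * permU σ))
    (hdet : ∀ t : Fˣ, ∃ d : Fin n → Fˣ, d ∘ σ.symm = d ∧ ∏ i, d i = t) : Covered q x := by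
  refine covered_of_gl (g := g) (fun t => ?_) ?_
  · obtain ⟨d, hd, hdt⟩ := hdet t
    refine ⟨g * diagU d * g⁻¹, ?_, ?_⟩
    · rw [show x = g * (diagU (fun _ => w) * permU σ) * g⁻¹ from eq_mul_inv_of_mul_eq hx]
      simp only [mul_assoc, inv_mul_cancel_left]
      rw [← mul_assoc (diagU d), diagU_comm, mul_assoc, ← mul_assoc (permU σ), permU_diagU, hd, mul_assoc]
    · rw [map_mul, map_mul, map_inv, mul_inv_cancel_comm, det_diagU, hdt]
  · rw [mul_assoc, hx, inv_mul_cancel_left]
    refine mul_mem ?_ ?_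
    · refine ⟨w ^ (q + 1), fun u v => ?_⟩
      simp only [hermForm, coe_diagU, Matrix.mulVec_diagonal, Units.val_pow_eq_pow_val, Finset.mul_sum]
      exact Finset.sum_congr rfl fun i _ => by rw [mul_pow]; ring
    · refine ⟨1, fun u v => ?_⟩
      simp only [hermForm, permU_mulVec, Units.val_one, one_mul]
      exact Fintype.sum_equiv σ.symm _ _ fun i => rfl

/-- Characteristic two: every element with scalar square is covered. -/
theorem covered_char_two [CharP F 2] (hF : Fintype.card F = q ^ 2) (hn : 0 < n) {x : GL (Fin n) F} {z : F}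
    (hz : ((x ^ 2 : GL (Fin n) F) : Matrix (Fin n) (Fin n) F) = z • (1 : Matrix (Fin n) (Fin n) F)) :
    Covered q x := by
  classical
  haveI : Fact (Nat.Prime 2) := ⟨Nat.prime_two⟩
  obtain ⟨w, hw⟩ := (frobeniusEquiv F 2).surjective z
  rw [frobeniusEquiv_apply, frobenius_def] at hw
  have hw0 : w ≠ 0 := by
    rintro rfl
    rw [← hw, zero_pow two_ne_zero, zero_smul] at hz
    exact (Matrix.det_ne_zero_of_left_inverse (B := (x ^ 2 : GL (Fin n) F).inv) (x ^ 2 : GL (Fin n) F).inv_val)
      (by haveI : Nonempty (Fin n) := ⟨⟨0, hn⟩⟩; rw [hz]; exact Matrix.det_zero)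
  set T : Module.End F (Fin n → F) := w⁻¹ • Matrix.toLin' (x : Matrix (Fin n) (Fin n) F) - 1 with hT
  have hT2 : T ^ 2 = 0 := by
    have hX : Matrix.toLin' (x : Matrix (Fin n) (Fin n) F) * Matrix.toLin' (x : Matrix (Fin n) (Fin n) F) =
        (w ^ 2) • (1 : Module.End F (Fin n → F)) := by
      rw [Module.End.mul_eq_comp, ← Matrix.toLin'_mul, ← Units.val_mul, ← sq, hz, hw, map_smul, Matrix.toLin'_one]
      rfl
    have h2 : (2 : F) = 0 := CharP.cast_eq_zero F 2
    rw [hT, sq, sub_mul, mul_sub, one_mul, mul_one, smul_mul_smul_comm, hX, smul_smul,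
      show w⁻¹ * w⁻¹ * w ^ 2 = 1 by field_simp, one_smul]
    rw [show (1 : Module.End F (Fin n → F)) - w⁻¹ • Matrix.toLin' (x : Matrix (Fin n) (Fin n) F) -
      (w⁻¹ • Matrix.toLin' (x : Matrix (Fin n) (Fin n) F) - 1) =
      (2 : F) • ((1 : Module.End F (Fin n → F)) - w⁻¹ • Matrix.toLin' (x : Matrix (Fin n) (Fin n) F)) by module,
      h2, zero_smul]
  obtain ⟨s, l, b, hb1, hb2, hb3⟩ := Semisimple.exists_basis_of_sq_zero hT2
  have hcard : Fintype.card ((Fin s ⊕ Fin s) ⊕ Fin l) = Fintype.card (Fin n) := by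
    rw [← Module.finrank_eq_card_basis b, finrank_fintype_fun_eq_card]
  let e : ((Fin s ⊕ Fin s) ⊕ Fin l) ≃ Fin n := Fintype.equivOfCardEq hcard
  set f' : ((Fin s ⊕ Fin s) ⊕ Fin l) → Fin n → F :=
    Sum.elim (Sum.elim (fun i => b (Sum.inl (Sum.inl i))) (fun i => b (Sum.inl (Sum.inl i)) + b (Sum.inl (Sum.inr i))))
      (fun j => b (Sum.inr j)) with hf'
  let τ : Equiv.Perm ((Fin s ⊕ Fin s) ⊕ Fin l) := Equiv.sumCongr (Equiv.sumComm (Fin s) (Fin s)) (Equiv.refl _)
  let σ : Equiv.Perm (Fin n) := e.permCongr τ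
  set f : Fin n → Fin n → F := fun i => f' (e.symm i) with hf
  have hTy : ∀ v, (x : Matrix (Fin n) (Fin n) F) *ᵥ v = w • (v + T v) := fun v => by
    rw [hT, LinearMap.sub_apply, LinearMap.smul_apply, Module.End.one_apply, add_sub_cancel, smul_smul,
      mul_inv_cancel₀ hw0, one_smul, Matrix.toLin'_apply]
  have hli : LinearIndependent F f := by
    have hsp : ⊤ ≤ Submodule.span F (Set.range f') := by
      rw [← b.span_eq, Submodule.span_le]
      rintro _ ⟨(i | i) | j, rfl⟩
      · exact Submodule.subset_span ⟨Sum.inl (Sum.inl i), rfl⟩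
      · have h : b (Sum.inl (Sum.inr i)) = f' (Sum.inl (Sum.inr i)) - f' (Sum.inl (Sum.inl i)) := by simp [hf']
        rw [h]
        exact Submodule.sub_mem _ (Submodule.subset_span ⟨_, rfl⟩) (Submodule.subset_span ⟨_, rfl⟩)
      · exact Submodule.subset_span ⟨Sum.inr j, rfl⟩
    exact (linearIndependent_of_top_le_span_of_card_eq_finrank hsp (Module.finrank_eq_card_basis b).symm).comp _
      e.symm.injective
  let g : GL (Fin n) F := Matrix.GeneralLinearGroup.mk'' (Matrix.of fun i j => f j i) (by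
    rw [← Matrix.isUnit_iff_isUnit_det, ← Matrix.linearIndependent_cols_iff_isUnit]
    exact hli)
  set wU : Fˣ := Units.mk0 w hw0
  have hy : (diagU (fun _ => wU))⁻¹ * x * g = g * permU σ := by
    refine eq_permU_of_frame (x := (diagU (fun _ => wU))⁻¹ * x) (f := f) (fun i j => rfl) fun i => ?_
    rw [Units.val_mul, ← Matrix.mulVec_mulVec, hTy, Matrix.mulVec_smul]
    have hdinv : ∀ v : Fin n → F,
        (((diagU (fun _ => wU))⁻¹ : GL (Fin n) F) : Matrix (Fin n) (Fin n) F) *ᵥ v = w⁻¹ • v := fun v => by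
      funext j
      show (Matrix.diagonal _ *ᵥ v) j = _
      rw [Matrix.mulVec_diagonal]
      simp [wU]
    rw [hdinv, smul_smul, mul_inv_cancel₀ hw0, one_smul]
    obtain ⟨k, rfl⟩ := e.surjective i
    have hσk : f (σ (e k)) = f' (τ k) := by simp [hf, σ, Equiv.permCongr_apply]
    rw [hσk, hf]
    simp only [Equiv.symm_apply_apply]
    rcases k with (i | i) | j
    · show b (Sum.inl (Sum.inl i)) + T (b (Sum.inl (Sum.inl i))) =
        b (Sum.inl (Sum.inl i)) + b (Sum.inl (Sum.inr i))
      rw [hb1]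
    · show b (Sum.inl (Sum.inl i)) + b (Sum.inl (Sum.inr i)) +
          T (b (Sum.inl (Sum.inl i)) + b (Sum.inl (Sum.inr i))) = b (Sum.inl (Sum.inl i))
      have h2 : (2 : F) = 0 := CharP.cast_eq_zero F 2
      rw [map_add, hb1, hb2, add_zero, add_assoc, ← two_smul F, h2, zero_smul, add_zero]
    · show b (Sum.inr j) + T (b (Sum.inr j)) = b (Sum.inr j)
      rw [hb3, add_zero]
  refine covered_perm hF wU σ (g := g) ?_ fun t => ?_
  · rw [mul_assoc] at hy
    rw [← mul_assoc, show g * diagU (fun _ => wU) = diagU (fun _ => wU) * g from Units.ext (by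
      simp only [Units.val_mul, coe_diagU]
      exact ((Matrix.scalar_commute (w : F) (fun r => mul_comm _ _) _).eq).symm), mul_assoc, ← hy,
      mul_inv_cancel_left]
  · have hσσ : ∀ i, σ.symm (σ.symm i) = i := fun i => by
      obtain ⟨k, rfl⟩ := e.surjective i
      have h : ∀ k, σ (e k) = e (τ k) := fun k => by simp [σ, Equiv.permCongr_apply]
      have hs : ∀ k, σ.symm (e k) = e (τ k) := fun k => by
        rw [Equiv.symm_apply_eq, h]
        rcases k with (k | k) | k <;> rfl
      rw [hs, hs]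
      rcases k with (k | k) | k <;> rfl
    have hsymm : ∀ i₀ i, σ.symm i = i₀ ↔ i = σ.symm i₀ := fun i₀ i =>
      ⟨fun h => by rw [← h, hσσ], fun h => by rw [h, hσσ]⟩
    by_cases hfix : σ.symm ⟨0, hn⟩ = ⟨0, hn⟩
    · refine ⟨Function.update 1 ⟨0, hn⟩ t, funext fun i => ?_, ?_⟩
      · rw [Function.comp_apply, Function.update_apply, Function.update_apply]
        exact if_congr ((hsymm _ i).trans (by rw [hfix])) rfl rfl
      · rw [Finset.prod_update_of_mem (Finset.mem_univ _)]; simp
    · obtain ⟨u, hu⟩ := (frobeniusEquiv F 2).surjective (t : F)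
      rw [frobeniusEquiv_apply, frobenius_def] at hu
      have hu0 : u ≠ 0 := fun h => t.ne_zero (by rw [← hu, h, zero_pow two_ne_zero])
      set i₀ : Fin n := ⟨0, hn⟩
      refine ⟨fun i => if i = i₀ ∨ i = σ.symm i₀ then Units.mk0 u hu0 else 1, funext fun i => ?_, ?_⟩
      · rw [Function.comp_apply]
        exact if_congr (by rw [hsymm, σ.symm.injective.eq_iff, or_comm]) rfl rfl
      · rw [Finset.prod_ite, Finset.prod_const, Finset.prod_const_one, mul_one]
        have : (Finset.univ.filter fun i => i = i₀ ∨ i = σ.symm i₀) = {i₀, σ.symm i₀} := by ext; simp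
        rw [this, Finset.card_pair (Ne.symm hfix)]
        exact Units.ext (by simpa using hu)

/-- No similitude has square a non-square scalar. -/
theorem not_covered_nonsquare (hF : Fintype.card F = q ^ 2) (hn : 0 < n) (h2 : (2 : F) ≠ 0) {x : GL (Fin n) F}
    {z : F} (hz : ((x ^ 2 : GL (Fin n) F) : Matrix (Fin n) (Fin n) F) = z • (1 : Matrix (Fin n) (Fin n) F))
    (hns : ∀ b : F, b ^ 2 ≠ z) : ¬ Covered q x := by
  rintro ⟨g, -, c, hc⟩
  have hz0 : z ≠ 0 := fun h => hns 0 (by rw [h, zero_pow two_ne_zero])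
  have hq := two_le_q hF
  set H : Matrix (Fin n) (Fin n) F := ((g⁻¹ * x * g : GL (Fin n) F) : Matrix (Fin n) (Fin n) F) with hH
  have hHH : H * H = z • (1 : Matrix (Fin n) (Fin n) F) := by
    rw [hH, ← Units.val_mul, show g⁻¹ * x * g * (g⁻¹ * x * g) = g⁻¹ * x ^ 2 * g by rw [sq]; group, Units.val_mul,
      Units.val_mul, hz, Matrix.mul_smul, Matrix.smul_mul, mul_one, ← Units.val_mul, inv_mul_cancel, Units.val_one]
  have hcq := multiplier_fixed hF hn hc
  set e : Fin n → F := Pi.single ⟨0, hn⟩ 1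
  have h1 := hc (H *ᵥ e) (H *ᵥ e)
  conv_rhs at h1 => rw [hc]
  rw [Matrix.mulVec_mulVec, hHH, Matrix.smul_mulVec, Matrix.one_mulVec, herm_self_smul,
    show hermForm n F q e e = 1 by rw [herm_single_single hF, if_pos rfl], mul_one, mul_one] at h1
  have hodd : Odd q := by
    rcases Nat.even_or_odd q with he | ho
    · exfalso
      obtain ⟨p, a, hp, hchar, -, hqa⟩ := exists_char hF
      haveI := hchar
      obtain rfl : 2 = p := (Nat.prime_dvd_prime_iff_eq Nat.prime_two hp).1
        (Nat.prime_two.dvd_of_dvd_pow (hqa ▸ even_iff_two_dvd.1 he))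
      exact h2 (CharP.cast_eq_zero F 2)
    · exact ho
  obtain ⟨b, hb⟩ : IsSquare z := by
    refine (FiniteField.isSquare_iff (fun h => h2 ?_) hz0).2 ?_
    · haveI := ringChar.charP F
      exact_mod_cast (CharP.cast_eq_zero_iff F (ringChar F) 2).2 (h ▸ dvd_rfl)
    · obtain ⟨k, hk⟩ := hodd
      rw [hF, show q ^ 2 / 2 = (q + 1) * k from Nat.div_eq_of_lt_le (by rw [hk]; ring_nf; omega)
        (by rw [hk]; ring_nf; omega), pow_mul, h1, ← sq, ← pow_mul]
      refine mul_right_cancel₀ (c.ne_zero) ?_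
      rw [← pow_succ, ← hk, hcq, one_mul]
  exact hns b (by rw [sq, ← hb])

end CfsgLib.Classical.PrimeDerangement.UnitaryForm
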