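import Cfsg.Agent.Eq.Def_GeometricClasses
import Cfsg.Agent.LinAlg.Witt.Std
import Cfsg.Agent.LinAlg.Witt.Bases
import Cfsg.Agent.Classical.Unitary.Parabolic
import Cfsg.Agent.Classical.PrimeDerangement.Diag
import Cfsg.Prelude.Def_GeometricClasses

/-!
Conjugates of a matrix among the similitudes of the standard hermitian form: reduction to the standard form,
adjusting the determinant, and the symmetry of the eigenspace dimensions of a similitude.
-/

set_option autoImplicit false
set_option linter.unusedSectionVars false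

namespace CfsgLib.Classical.PrimeDerangement.UnitaryForm

open Cfsg Matrix Module CfsgLib.Unitary

variable {F : Type*} [Field F] [Fintype F] {n q : ℕ}

/-- All unitary forms are equivalent to the standard one. -/
theorem exists_equiv (hF : Fintype.card F = q ^ 2) {f : (Fin n → F) → (Fin n → F) → F}
    (hf : Cfsg.Geo.IsUnitaryFormPow q f) :
    ∃ P : GL (Fin n) F, ∀ u v, f ((P : Matrix (Fin n) (Fin n) F) *ᵥ u) ((P : Matrix (Fin n) (Fin n) F) *ᵥ v) =
      hermForm n F q u v := by
  classical
  obtain ⟨σ, hσ, hne, hinv⟩ := LinAlg.Witt.exists_conjAut hF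
  have hf' : Cfsg.Geo.IsUnitaryForm σ f :=
    ⟨hne, hinv, hf.add_left, hf.smul_left, fun v w => by rw [hσ, ← hf.herm], hf.nondegenerate⟩
  obtain ⟨-, hker⟩ := LinAlg.Witt.isFormData_unitary hf'
  obtain ⟨b, hb⟩ := LinAlg.Witt.exists_orthonormal_basis (σ : F →+* F)
    (fun h => hne (RingEquiv.ext (RingHom.congr_fun h))) hinv (LinAlg.Witt.sesqOfFun hf')
    (fun u v => (hf'.herm u v).symm) hker
  let c := b.reindex (finCongr (finrank_fin_fun F (n := n)))
  have hc : ∀ i j, f (c i) (c j) = if i = j then 1 else 0 := by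
    intro i j
    have h := hb ((finCongr (finrank_fin_fun F (n := n))).symm j) ((finCongr (finrank_fin_fun F (n := n))).symm i)
    simp only [LinAlg.Witt.sesqOfFun_apply, EmbeddingLike.apply_eq_iff_eq] at h
    simp only [c, Basis.reindex_apply, h]
    exact if_congr eq_comm rfl rfl
  have hsum : ∀ (a : Fin n → F) (x : Fin n → Fin n → F) (v : Fin n → F),
      f (∑ i, a i • x i) v = ∑ i, a i * f (x i) v := by
    intro a x v
    let L : (Fin n → F) →ₗ[F] F :=
      { toFun := fun u => f u v
        map_add' := fun u w => hf.add_left u w v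
        map_smul' := fun k u => hf.smul_left k u v }
    show L (∑ i, a i • x i) = _
    simp [map_sum, map_smul, L]
  refine ⟨Matrix.GeneralLinearGroup.mk'' (Matrix.of fun i j => c j i) ?_, fun u v => ?_⟩
  · rw [← Matrix.isUnit_iff_isUnit_det, ← Matrix.linearIndependent_cols_iff_isUnit]
    exact c.linearIndependent
  · have hP : ∀ w : Fin n → F, (Matrix.of fun i j => c j i) *ᵥ w = ∑ j, w j • c j := fun w => by
      funext i
      simp [Matrix.mulVec, dotProduct, mul_comm]
    show f ((Matrix.of fun i j => c j i) *ᵥ u) ((Matrix.of fun i j => c j i) *ᵥ v) = _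
    rw [hP, hP, hsum, hermForm]
    refine Finset.sum_congr rfl fun i _ => ?_
    congr 1
    rw [hf.herm, hsum, Finset.sum_eq_single i]
    · rw [hc, if_pos rfl, mul_one]
    · intro j _ hji; rw [hc, if_neg hji, mul_zero]
    · simp

theorem mem_sim_iff_conj {f : (Fin n → F) → (Fin n → F) → F} {P : GL (Fin n) F}
    (hP : ∀ u v, f ((P : Matrix (Fin n) (Fin n) F) *ᵥ u) ((P : Matrix (Fin n) (Fin n) F) *ᵥ v) =
      hermForm n F q u v) (g : GL (Fin n) F) :
    P⁻¹ * g * P ∈ Cfsg.Geo.similarityGroup (hermForm n F q) ↔ g ∈ Cfsg.Geo.similarityGroup f := by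
  have hinv : ∀ u, (P : Matrix (Fin n) (Fin n) F) *ᵥ (((P⁻¹ : GL (Fin n) F) : Matrix (Fin n) (Fin n) F) *ᵥ u) = u :=
    fun u => by rw [Matrix.mulVec_mulVec, ← Units.val_mul, mul_inv_cancel, Units.val_one, Matrix.one_mulVec]
  refine exists_congr fun c => ⟨fun h u v => ?_, fun h u v => ?_⟩
  · have := h (((P⁻¹ : GL (Fin n) F) : Matrix (Fin n) (Fin n) F) *ᵥ u) (((P⁻¹ : GL (Fin n) F) : Matrix (Fin n) (Fin n) F) *ᵥ v)
    simp only [Units.val_mul, ← Matrix.mulVec_mulVec, ← hP, hinv] at this
    exact this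
  · simp only [Units.val_mul, ← Matrix.mulVec_mulVec, ← hP, hinv]
    exact h _ _

/-- Some conjugate of `x` by a matrix of determinant one is a similitude. -/
def Covered (q : ℕ) (x : GL (Fin n) F) : Prop :=
  ∃ g ∈ Cfsg.Geo.specialLinear (Fin n) F, g⁻¹ * x * g ∈ Cfsg.Geo.similarityGroup (hermForm n F q)

/-- If the centraliser of `x` has all determinants, any conjugate among the similitudes suffices. -/
theorem covered_of_gl {x : GL (Fin n) F}
    (hdet : ∀ t : Fˣ, ∃ c : GL (Fin n) F, c * x = x * c ∧ Matrix.GeneralLinearGroup.det c = t) {g : GL (Fin n) F}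
    (hg : g⁻¹ * x * g ∈ Cfsg.Geo.similarityGroup (hermForm n F q)) : Covered q x := by
  obtain ⟨c, hcx, hcd⟩ := hdet (Matrix.GeneralLinearGroup.det g)⁻¹
  refine ⟨c * g, ?_, ?_⟩
  · show Matrix.GeneralLinearGroup.det (c * g) = 1
    rw [map_mul, hcd, inv_mul_cancel]
  · rwa [show (c * g)⁻¹ * x * (c * g) = g⁻¹ * (c⁻¹ * (x * c)) * g by group, ← hcx, inv_mul_cancel_left]

/-- The multiplier of a similitude is fixed by conjugation. -/
theorem multiplier_fixed (hF : Fintype.card F = q ^ 2) (hn : 0 < n) {h : Matrix (Fin n) (Fin n) F} {c : F}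
    (hc : ∀ u v, hermForm n F q (h *ᵥ u) (h *ᵥ v) = c * hermForm n F q u v) : c ^ q = c := by
  have h1 := hc (Pi.single ⟨0, hn⟩ 1) (Pi.single ⟨0, hn⟩ 1)
  rw [herm_single_single hF, if_pos rfl, mul_one] at h1
  rw [← h1, herm_self_fixed hF]

/-- The eigenspaces of a similitude for `μ` and `c / μ ^ q` have the same dimension. -/
theorem finrank_eigen_eq (hF : Fintype.card F = q ^ 2) (hn : 0 < n) {h : GL (Fin n) F} {c : Fˣ}
    (hc : ∀ u v, hermForm n F q ((h : Matrix (Fin n) (Fin n) F) *ᵥ u) ((h : Matrix (Fin n) (Fin n) F) *ᵥ v) =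
      (c : F) * hermForm n F q u v) {μ : F} (hμ : μ ≠ 0) :
    finrank F (LinearMap.ker (Matrix.toLin' (h : Matrix (Fin n) (Fin n) F) - ((c : F) / μ ^ q) • 1)) =
      finrank F (LinearMap.ker (Matrix.toLin' (h : Matrix (Fin n) (Fin n) F) - μ • 1)) := by
  set H : Matrix (Fin n) (Fin n) F := (h : Matrix (Fin n) (Fin n) F) with hH
  set T := Matrix.toLin' H - μ • 1 with hT
  have hcq := multiplier_fixed hF hn hc
  have key : LinearMap.ker (Matrix.toLin' H - ((c : F) / μ ^ q) • 1) = perp q (LinearMap.range T) := by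
    ext v
    rw [LinearMap.mem_ker, LinearMap.sub_apply, Matrix.toLin'_apply, LinearMap.smul_apply, Module.End.one_apply,
      sub_eq_zero, mem_perp]
    set w := ((h⁻¹ : GL (Fin n) F) : Matrix (Fin n) (Fin n) F) *ᵥ v with hw
    have hHw : H *ᵥ w = v := by
      rw [hw, hH, Matrix.mulVec_mulVec, ← Units.val_mul, mul_inv_cancel, Units.val_one, Matrix.one_mulVec]
    have hker : (∀ u, hermForm n F q v (T u) = 0) ↔ (c : F) • w = μ ^ q • v := by
      constructor
      · intro hall
        refine sub_eq_zero.1 (herm_nondeg hF _ fun u => ?_)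
        have h1 := hall u
        rw [hT, LinearMap.sub_apply, Matrix.toLin'_apply, LinearMap.smul_apply, Module.End.one_apply,
          herm_sub_right hF, herm_smul_right, sub_eq_zero] at h1
        rw [herm_sub_left, herm_smul_left, herm_smul_left, ← hc w u, hHw, h1, sub_self]
      · intro he u
        rw [hT, LinearMap.sub_apply, Matrix.toLin'_apply, LinearMap.smul_apply, Module.End.one_apply,
          herm_sub_right hF, herm_smul_right, ← herm_smul_left, ← he, herm_smul_left, ← hc w u, hHw, sub_self]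
    constructor
    · intro hv r hr
      obtain ⟨u, rfl⟩ := LinearMap.mem_range.1 hr
      refine hker.2 ?_ u
      rw [← smul_right_inj (pow_ne_zero q hμ)] at hv
      rw [smul_smul, mul_div_cancel₀ _ (pow_ne_zero q hμ)] at hv
      rw [hw, ← Matrix.mulVec_smul, ← hv, Matrix.mulVec_smul, Matrix.mulVec_mulVec, hH, ← Units.val_mul,
        inv_mul_cancel, Units.val_one, Matrix.one_mulVec]
    · intro hall
      have he := hker.1 fun u => hall _ (LinearMap.mem_range_self T u)
      have he' := congrArg (fun x => H *ᵥ x) he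
      simp only [Matrix.mulVec_smul, hHw] at he'
      rw [div_eq_inv_mul, mul_smul, he', smul_smul, inv_mul_cancel₀ (pow_ne_zero q hμ), one_smul]
  have h1 := finrank_perp_add hF (LinearMap.range T)
  have h2 := LinearMap.finrank_range_add_finrank_ker T
  rw [finrank_fintype_fun_eq_card, Fintype.card_fin] at h2
  rw [key]
  omega

theorem finrank_ker_conj (g x : GL (Fin n) F) (μ : F) :
    finrank F (LinearMap.ker (Matrix.toLin' ((g⁻¹ * x * g : GL (Fin n) F) : Matrix (Fin n) (Fin n) F) - μ • 1)) =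
      finrank F (LinearMap.ker (Matrix.toLin' (x : Matrix (Fin n) (Fin n) F) - μ • 1)) := by
  let e : (Fin n → F) ≃ₗ[F] (Fin n → F) :=
    { Matrix.toLin' (g : Matrix (Fin n) (Fin n) F) with
      invFun := fun v => ((g⁻¹ : GL (Fin n) F) : Matrix (Fin n) (Fin n) F) *ᵥ v
      left_inv := fun v => by simp [Matrix.mulVec_mulVec]
      right_inv := fun v => by simp [Matrix.mulVec_mulVec] }
  refine (e.ofSubmodules _ _ ?_).finrank_eq
  have hm : ∀ (y : Matrix (Fin n) (Fin n) F) v, v ∈ LinearMap.ker (Matrix.toLin' y - μ • 1) ↔ y *ᵥ v = μ • v :=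
    fun y v => by
      rw [LinearMap.mem_ker, LinearMap.sub_apply, Matrix.toLin'_apply, LinearMap.smul_apply, Module.End.one_apply,
        sub_eq_zero]
  ext v
  rw [Submodule.mem_map, hm]
  constructor
  · rintro ⟨u, hu, rfl⟩
    rw [hm] at hu
    show (x : Matrix (Fin n) (Fin n) F) *ᵥ ((g : Matrix (Fin n) (Fin n) F) *ᵥ u) =
      μ • ((g : Matrix (Fin n) (Fin n) F) *ᵥ u)
    rw [← Matrix.mulVec_smul, ← hu]
    simp [Matrix.mulVec_mulVec, Units.val_mul, ← mul_assoc]
  · intro hv
    refine ⟨((g⁻¹ : GL (Fin n) F) : Matrix (Fin n) (Fin n) F) *ᵥ v, (hm _ _).2 ?_, ?_⟩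
    · rw [Matrix.mulVec_mulVec, ← Units.val_mul, mul_assoc, mul_inv_cancel, mul_one, Units.val_mul,
        ← Matrix.mulVec_mulVec, hv, Matrix.mulVec_smul]
    · show (g : Matrix (Fin n) (Fin n) F) *ᵥ (((g⁻¹ : GL (Fin n) F) : Matrix (Fin n) (Fin n) F) *ᵥ v) = v
      simp [Matrix.mulVec_mulVec]

theorem finrank_ker_diagonal [DecidableEq F] (d : Fin n → F) (μ : F) :
    finrank F (LinearMap.ker (Matrix.toLin' (Matrix.diagonal d) - μ • 1)) =
      (Finset.univ.filter fun i => d i = μ).card := by
  classical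
  let Φ : ({i // d i = μ} → F) →ₗ[F] (Fin n → F) :=
    { toFun := fun v i => if h : d i = μ then v ⟨i, h⟩ else 0
      map_add' := fun a b => funext fun i => by by_cases h : d i = μ <;> simp [h]
      map_smul' := fun a b => funext fun i => by by_cases h : d i = μ <;> simp [h] }
  have hΦ : Function.Injective Φ := fun a b hab => funext fun ⟨i, h⟩ => by simpa [Φ, h] using congrFun hab i
  have hr : LinearMap.ker (Matrix.toLin' (Matrix.diagonal d) - μ • 1) = LinearMap.range Φ := by
    ext v
    rw [LinearMap.mem_ker, LinearMap.sub_apply, Matrix.toLin'_apply, LinearMap.smul_apply, Module.End.one_apply,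
      LinearMap.mem_range]
    constructor
    · intro hv
      refine ⟨fun i => v i.1, funext fun i => ?_⟩
      by_cases h : d i = μ
      · simp [Φ, h]
      · have h1 := congrFun hv i
        rw [Pi.sub_apply, Matrix.mulVec_diagonal, Pi.smul_apply, smul_eq_mul, ← sub_mul, Pi.zero_apply] at h1
        simp [Φ, h, (mul_eq_zero.1 h1).resolve_left (sub_ne_zero.2 h)]
    · rintro ⟨a, rfl⟩
      funext i
      rw [Pi.sub_apply, Matrix.mulVec_diagonal, Pi.smul_apply, smul_eq_mul, ← sub_mul, Pi.zero_apply]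
      by_cases h : d i = μ <;> simp [Φ, h]
  rw [hr, LinearMap.finrank_range_of_inj hΦ, finrank_fintype_fun_eq_card, Fintype.card_subtype]

/-- A diagonal matrix with two eigenvalues of unique multiplicity and different norms has no similitude conjugate. -/
theorem not_covered_diag [DecidableEq F] (hF : Fintype.card F = q ^ 2) (hn : 0 < n) (d : Fin n → Fˣ) (a b : Fˣ)
    (ha : ∀ ν : F, (Finset.univ.filter fun i => (d i : F) = ν).card =
      (Finset.univ.filter fun i => (d i : F) = a).card → ν = a)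
    (hb : ∀ ν : F, (Finset.univ.filter fun i => (d i : F) = ν).card =
      (Finset.univ.filter fun i => (d i : F) = b).card → ν = b)
    (hab : (a : F) ^ (q + 1) ≠ (b : F) ^ (q + 1)) : ¬ Covered q (diagU d) := by
  rintro ⟨g, -, c, hc⟩
  have key : ∀ e : Fˣ, (∀ ν : F, (Finset.univ.filter fun i => (d i : F) = ν).card =
      (Finset.univ.filter fun i => (d i : F) = e).card → ν = e) → (e : F) ^ (q + 1) = c := by
    intro e he
    have h1 := finrank_eigen_eq hF hn hc (μ := (e : F)) e.ne_zero
    rw [finrank_ker_conj, finrank_ker_conj, coe_diagU, finrank_ker_diagonal, finrank_ker_diagonal] at h1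
    have h2 := he _ h1
    rw [div_eq_iff (pow_ne_zero q e.ne_zero)] at h2
    rw [pow_succ', ← h2]
  exact hab ((key a ha).trans (key b hb).symm)

end CfsgLib.Classical.PrimeDerangement.UnitaryForm
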