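import Cfsg.Agent.Classical.PrimeDerangement.UnitaryForm.Models
import Cfsg.Agent.Classical.Unitary.Blocks
import Cfsg.Agent.Classical.Unitary.Order
import Cfsg.Agent.Classical.PrimeDerangement.Orders

/-!
Elements of odd prime order without a similitude conjugate.
-/

set_option autoImplicit false
set_option linter.unusedSectionVars false

namespace CfsgLib.Classical.PrimeDerangement.UnitaryForm

open Cfsg Matrix Module CfsgLib.Unitary

variable {F : Type*} [Field F] [Fintype F] {n q r : ℕ} [Fact r.Prime]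

/-- An element of order `r` modulo scalars and determinant one that has no similitude conjugate. -/
def Witness (F : Type*) [Field F] [Fintype F] (n q r : ℕ) : Prop :=
  ∃ x : GL (Fin n) F, x ∈ Cfsg.Geo.specialLinear (Fin n) F ∧
    (∃ z : F, ((x ^ r : GL (Fin n) F) : Matrix (Fin n) (Fin n) F) = z • (1 : Matrix (Fin n) (Fin n) F)) ∧
    (∀ z : F, (x : Matrix (Fin n) (Fin n) F) ≠ z • (1 : Matrix (Fin n) (Fin n) F)) ∧ ¬ Covered q x

/-- The residue of `-q` has order twice that of `q ^ 2`. -/
theorem orderOf_neg (hF : Fintype.card F = q ^ 2) (hr2 : r ≠ 2) {i : ℕ} (hi : (-(q : ZMod r)) ^ i = -1) :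
    orderOf (-(q : ZMod r)) = 2 * orderOf (Fintype.card F : ZMod r) ∧ orderOf (Fintype.card F : ZMod r) ∣ i := by
  have h1 : (-1 : ZMod r) ≠ 1 := fun h => by
    have h2 : ((2 : ℕ) : ZMod r) = 0 := by push_cast; linear_combination -h
    exact hr2 ((Nat.prime_dvd_prime_iff_eq Fact.out Nat.prime_two).1 ((ZMod.natCast_eq_zero_iff _ _).1 h2))
  have hcard : (Fintype.card F : ZMod r) = (-(q : ZMod r)) ^ 2 := by rw [hF]; push_cast; ring
  set o := orderOf (-(q : ZMod r)) with ho
  have hdvd : o ∣ 2 * i := orderOf_dvd_of_pow_eq_one (by rw [mul_comm, pow_mul, hi]; ring)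
  have hnot : ¬ o ∣ i := fun h => h1 (hi ▸ orderOf_dvd_iff_pow_eq_one.1 h)
  have hev : 2 ∣ o := by
    by_contra h
    exact hnot ((Nat.coprime_two_right.2 (Nat.odd_iff.2 (Nat.two_dvd_ne_zero.1 h))).dvd_of_dvd_mul_left hdvd)
  have hs : orderOf (Fintype.card F : ZMod r) = o / 2 := by
    rw [hcard, orderOf_pow' _ two_ne_zero, ← ho, Nat.gcd_eq_right hev]
  refine ⟨by rw [hs, Nat.mul_div_cancel' hev], ?_⟩
  rw [hs]
  obtain ⟨c, hc⟩ := hev
  rw [hc, Nat.mul_div_cancel_left _ two_pos]
  rw [hc] at hdvd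
  exact Nat.dvd_of_mul_dvd_mul_left two_pos hdvd

theorem not_dvd_card_GU_le (hF : Fintype.card F = q ^ 2) (hrq : ¬ r ∣ q) {l : ℕ}
    (hl : l < orderOf (-(q : ZMod r))) : ¬ r ∣ Nat.card ↥(GU l F q) := by
  have hr : r.Prime := Fact.out
  rw [card_GU hF, hr.dvd_mul]
  rintro (h | h)
  · exact hrq (hr.dvd_of_dvd_pow h)
  obtain ⟨j, hj, hd⟩ := (hr.prime.dvd_finsetProd_iff _).1 h
  rw [Finset.mem_range] at hj
  have key : (-(q : ZMod r)) ^ (j + 1) = 1 := by
    split_ifs at hd with hev
    · have h1 := (ZMod.natCast_eq_zero_iff _ _).2 hd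
      push_cast at h1
      rw [hev.add_one.neg_pow]
      linear_combination -h1
    · have h1 := (ZMod.natCast_eq_zero_iff _ _).2 hd
      rw [Nat.cast_sub (Nat.one_le_pow _ _ (by have := two_le_q hF; omega))] at h1
      push_cast at h1
      rw [(Nat.not_even_iff_odd.1 hev).add_one.neg_pow]
      linear_combination h1
  have := Nat.le_of_dvd (by omega) (orderOf_dvd_of_pow_eq_one key)
  omega

/-- Order of the field at least two modulo `r`. -/
theorem witness_orbit (hF : Fintype.card F = q ^ 2) (hr2 : r ≠ 2) (hrF : (r : F) ≠ 0) (hrq : ¬ r ∣ q) {i : ℕ}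
    (hi0 : 0 < i) (hin : i ≤ n) (hi : (-(q : ZMod r)) ^ i = -1) (hs1 : orderOf (Fintype.card F : ZMod r) ≠ 1) :
    Witness F n q r := by
  classical
  have hr : r.Prime := Fact.out
  obtain ⟨hneg, hsi⟩ := orderOf_neg hF hr2 hi
  set s := orderOf (Fintype.card F : ZMod r) with hs
  have hs0 : 0 < s := Semisimple.orderOf_card_pos hrF
  have hsn : s ≤ n := (Nat.le_of_dvd hi0 hsi).trans hin
  obtain ⟨X, hXr, hXns, -, hker, -⟩ :=
    Semisimple.exists_sl_orbit (n := n) hrF hs1 one_pos (by rw [one_mul]; exact hsn)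
  rw [one_mul, ← hs] at hker
  set x : GL (Fin n) F := Matrix.SpecialLinearGroup.toGL X with hxdef
  have hxv : (x : Matrix (Fin n) (Fin n) F) = (X : Matrix (Fin n) (Fin n) F) := rfl
  have hxr : x ^ r = 1 := by
    rw [hxdef, ← map_pow, show X ^ r = 1 from Subtype.ext (by rw [hXr, one_smul]; rfl), map_one]
  refine ⟨x, ?_, ⟨1, by rw [hxr, Units.val_one, one_smul]⟩, hXns, ?_⟩
  · rw [Cfsg.Geo.specialLinear, MonoidHom.mem_ker]
    exact Units.ext X.2
  rintro ⟨g, -, c, hc⟩
  set y : GL (Fin n) F := g⁻¹ * x * g with hy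
  have hyr : y ^ r = 1 := by
    rw [hy, show g⁻¹ * x * g = MulAut.conj g⁻¹ x by simp, ← map_pow, hxr, map_one]
  have hit : ∀ k : ℕ, ∀ u v, hermForm n F q (((y ^ k : GL (Fin n) F) : Matrix (Fin n) (Fin n) F) *ᵥ u)
      (((y ^ k : GL (Fin n) F) : Matrix (Fin n) (Fin n) F) *ᵥ v) = (c : F) ^ k * hermForm n F q u v := by
    intro k
    induction k with
    | zero => intro u v; simp
    | succ k ih =>
      intro u v
      rw [pow_succ, Units.val_mul, ← Matrix.mulVec_mulVec, ← Matrix.mulVec_mulVec, ih, hc, pow_succ]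
      ring
  have hn : 0 < n := by omega
  have hc1 : (c : F) = 1 := by
    refine Semisimple.eq_one_of_pow_eq_one hs1 ?_
    have h1 := hit r (Pi.single ⟨0, hn⟩ 1) (Pi.single ⟨0, hn⟩ 1)
    rw [hyr, Units.val_one, Matrix.one_mulVec, herm_single_single hF, if_pos rfl, mul_one] at h1
    exact h1.symm
  have hyG : y ∈ GU n F q := mem_GU.2 fun u v => by rw [hc, hc1, one_mul]
  set Y : Matrix (Fin n) (Fin n) F := (y : Matrix (Fin n) (Fin n) F) with hY
  set W : Submodule F (Fin n → F) := LinearMap.ker (Matrix.toLin' Y - (1 : F) • 1) with hW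
  have hmemW : ∀ v, v ∈ W ↔ Y *ᵥ v = v := fun v => by
    rw [hW, LinearMap.mem_ker, LinearMap.sub_apply, Matrix.toLin'_apply, one_smul, Module.End.one_apply, sub_eq_zero]
  have hWd : finrank F W = n - s := by
    rw [hW, hY, hy, finrank_ker_conj]
    exact hker
  have hYr : Y ^ r = 1 := by rw [hY, ← Units.val_pow_eq_pow_val, hyr, Units.val_one]
  have hnd : IsNondeg q W := by
    intro v hv h
    refine herm_nondeg hF v fun u => ?_
    set π := ∑ j ∈ Finset.range r, (Y ^ j) *ᵥ u with hπ
    have hπW : π ∈ W := by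
      rw [hmemW, hπ, Matrix.mulVec_sum]
      simp_rw [Matrix.mulVec_mulVec, ← pow_succ']
      have h1 := Finset.sum_range_succ' (fun i => (Y ^ i) *ᵥ u) r
      have h2 := Finset.sum_range_succ (fun i => (Y ^ i) *ᵥ u) r
      rw [h2, hYr, ← pow_zero Y] at h1
      exact (add_right_cancel h1).symm
    have hinv : ∀ j : ℕ, hermForm n F q v ((Y ^ j) *ᵥ u) = hermForm n F q v u := by
      intro j
      induction j with
      | zero => rw [pow_zero, Matrix.one_mulVec]
      | succ j ih =>
        rw [pow_succ', ← Matrix.mulVec_mulVec]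
        conv_lhs => rw [← (hmemW v).1 hv]
        rw [mem_GU.1 hyG, ih]
    have h1 := h π hπW
    rw [hπ, herm_sum_right hF] at h1
    simp only [hinv, Finset.sum_const, Finset.card_range, nsmul_eq_mul] at h1
    exact (mul_eq_zero.1 h1).resolve_left hrF
  obtain ⟨a, ha, haW, -⟩ := exists_orthonorm_basis hF hnd hWd
  obtain ⟨g2, hg2, hge⟩ := exists_GU_mulVec hF ha
  have hks : n - s + s = n := by omega
  set y' : ↥(GU n F q) := ⟨g2, hg2⟩⁻¹ * ⟨y, hyG⟩ * ⟨g2, hg2⟩ with hy'
  have hidx : ∀ j : Fin (n - s), blockIdx hks (Sum.inl j) = Fin.castLE (ha.le hF) j := fun j => Fin.ext rfl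
  have hfix : ∀ j : Fin (n - s), ((y' : GL (Fin n) F) : Matrix (Fin n) (Fin n) F) *ᵥ
      Pi.single (blockIdx hks (Sum.inl j)) 1 = Pi.single (blockIdx hks (Sum.inl j)) 1 := by
    intro j
    show ((g2⁻¹ * y * g2 : GL (Fin n) F) : Matrix (Fin n) (Fin n) F) *ᵥ _ = _
    rw [hidx, Units.val_mul, Units.val_mul, ← Matrix.mulVec_mulVec, hge, ← Matrix.mulVec_mulVec, ← hY,
      (hmemW _).1 (haW j), ← hge, Matrix.mulVec_mulVec, ← Units.val_mul, inv_mul_cancel, Units.val_one,
      Matrix.one_mulVec]
  have hcol : ∀ (t : Fin n) (j : Fin (n - s)), ((y' : GL (Fin n) F) : Matrix (Fin n) (Fin n) F) t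
      (blockIdx hks (Sum.inl j)) = (Pi.single (blockIdx hks (Sum.inl j)) (1 : F) : Fin n → F) t := by
    intro t j
    rw [← hfix j, Matrix.mulVec_single_one]
    rfl
  obtain ⟨pr, hpr⟩ := mem_range_blockGU hF hks y' (fun t j => by
    rw [hcol, Pi.single_eq_of_ne]
    exact fun h => by simpa using (blockIdx hks).injective h)
  have hpr' : pr ^ r = 1 := by
    refine blockGU_injective hF hks ?_
    rw [map_pow, hpr, map_one, hy',
      show ⟨g2, hg2⟩⁻¹ * ⟨y, hyG⟩ * ⟨g2, hg2⟩ = MulAut.conj (⟨g2, hg2⟩ : ↥(GU n F q))⁻¹ ⟨y, hyG⟩ by simp,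
      ← map_pow, show (⟨y, hyG⟩ : ↥(GU n F q)) ^ r = 1 from Subtype.ext hyr, map_one]
  have hp2 : pr.2 = 1 := by
    rw [← orderOf_eq_one_iff]
    by_contra hne
    have h1 := orderOf_dvd_of_pow_eq_one (show pr.2 ^ r = 1 from congrArg Prod.snd hpr')
    rcases (Nat.dvd_prime hr).1 h1 with h | h
    · exact hne h
    · exact not_dvd_card_GU_le (l := s) hF hrq (by omega) (h ▸ orderOf_dvd_natCard pr.2)
  have hp1 : pr.1 = 1 := by
    refine Subtype.ext (Units.ext (Matrix.ext fun t j => ?_))
    have := hcol (blockIdx hks (Sum.inl t)) j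
    rw [← hpr, blockGU_val] at this
    simpa [blockMat, Matrix.one_apply, Pi.single_apply, (blockIdx hks).injective.eq_iff] using this
  have h1 : y' = 1 := by rw [← hpr, show pr = 1 from Prod.ext hp1 hp2, map_one]
  rw [hy', mul_assoc, inv_mul_eq_one] at h1
  have hy1 : y = 1 := congrArg Subtype.val (mul_eq_right.1 h1.symm)
  rw [hy, mul_assoc, inv_mul_eq_one] at hy1
  exact hXns 1 (by rw [one_smul, ← hxv, mul_eq_right.1 hy1.symm, Units.val_one])

theorem card_filter_lt {k : ℕ} (hk : k ≤ n) : (Finset.univ.filter fun i : Fin n => i.val < k).card = k := by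
  have h : (Finset.univ.filter fun i : Fin n => i.val < k) = Finset.univ.map (Fin.castLEEmb hk) := by
    ext i
    simp only [Finset.mem_filter, Finset.mem_univ, true_and, Finset.mem_map, Fin.castLEEmb_apply]
    exact ⟨fun h => ⟨⟨i.val, h⟩, Fin.ext rfl⟩, fun ⟨j, hj⟩ => hj ▸ j.2⟩
  rw [h, Finset.card_map, Finset.card_univ, Fintype.card_fin]

theorem witness_of_diag (hn : 0 < n) (d : Fin n → Fˣ) (hdet : ∏ i, d i = 1) {z : F}
    (hz : ∀ i, (d i : F) ^ r = z) {i j : Fin n} (hij : d i ≠ d j) (hnc : ¬ Covered q (diagU d)) :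
    Witness F n q r := by
  refine ⟨diagU d, ?_, ⟨z, ?_⟩, fun c hc => ?_, hnc⟩
  · rw [Cfsg.Geo.specialLinear, MonoidHom.mem_ker, det_diagU, hdet]
  · rw [Units.val_pow_eq_pow_val, coe_diagU, Matrix.diagonal_pow, Matrix.smul_one_eq_diagonal]
    congr 1
    exact funext hz
  · rw [coe_diagU, Matrix.smul_one_eq_diagonal] at hc
    have h := Matrix.diagonal_injective hc
    exact hij (Units.ext ((congrFun h i).trans (congrFun h j).symm))

/-- Two eigenvalues with different multiplicities. -/
theorem witness_two (hF : Fintype.card F = q ^ 2) {k : ℕ} (hk0 : 0 < k) (hkn : k < n) (hne : k ≠ n - k) (a b : Fˣ)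
    (hdet : a ^ k * b ^ (n - k) = 1) (hpow : (a : F) ^ r = (b : F) ^ r)
    (hnorm : (a : F) ^ (q + 1) ≠ (b : F) ^ (q + 1)) : Witness F n q r := by
  classical
  have hab : a ≠ b := fun h => hnorm (by rw [h])
  have hab' : (a : F) ≠ b := fun h => hab (Units.ext h)
  set d : Fin n → Fˣ := fun i => if i.val < k then a else b with hd
  have hcnt : ∀ ν : F, (Finset.univ.filter fun i => (d i : F) = ν).card =
      if ν = (a : F) then k else if ν = (b : F) then n - k else 0 := by
    intro ν
    have hlt := card_filter_lt (n := n) hkn.le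
    split_ifs with h1 h2
    · refine Eq.trans (congrArg Finset.card ?_) hlt
      ext i
      simp only [Finset.mem_filter, Finset.mem_univ, true_and, hd, h1]
      by_cases h : i.val < k <;> simp [h, hab'.symm]
    · have h3 := Finset.card_filter_add_card_filter_not (s := (Finset.univ : Finset (Fin n))) (fun i => i.val < k)
      rw [hlt, Finset.card_univ, Fintype.card_fin] at h3
      refine Eq.trans (congrArg Finset.card ?_) (show (Finset.univ.filter fun i : Fin n => ¬ i.val < k).card = n - k by omega)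
      ext i
      simp only [Finset.mem_filter, Finset.mem_univ, true_and, hd, h2]
      by_cases h : i.val < k <;> simp [h, hab']
    · rw [Finset.card_eq_zero, Finset.filter_eq_empty_iff]
      intro i _
      simp only [hd]
      by_cases h : i.val < k <;> simp [h, Ne.symm h1, Ne.symm h2]
  refine witness_of_diag (by omega) d ?_ (z := (b : F) ^ r) (fun i => ?_) (i := ⟨0, by omega⟩) (j := ⟨k, hkn⟩) ?_ ?_
  · have h3 := Finset.card_filter_add_card_filter_not (s := (Finset.univ : Finset (Fin n))) (fun i => i.val < k)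
    rw [card_filter_lt hkn.le, Finset.card_univ, Fintype.card_fin] at h3
    simp only [hd, Finset.prod_ite, Finset.prod_const, card_filter_lt hkn.le]
    rw [show (Finset.univ.filter fun x : Fin n => ¬ x.val < k).card = n - k by omega, hdet]
  · simp only [hd]
    by_cases h : i.val < k <;> simp [h, hpow]
  · simpa [hd, hk0] using hab
  · refine not_covered_diag hF (by omega) d a b (fun ν h => ?_) (fun ν h => ?_) hnorm
    · simp only [hcnt, if_true] at h
      split_ifs at h with h1 h2
      · exact h1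
      · omega
      · omega
    · rw [hcnt, hcnt, if_neg hab'.symm, if_pos rfl] at h
      split_ifs at h with h1 h2
      · omega
      · exact h2
      · omega

/-- Three eigenvalues `ω⁻²`, `ω`, `1` with multiplicities `1`, `2`, `n - 3`. -/
theorem witness_three (hF : Fintype.card F = q ^ 2) (hn : 6 ≤ n) (hr5 : 5 ≤ r) {ω : Fˣ} (hω : IsPrimitiveRoot ω r)
    (hnorm : (ω : F) ^ (q + 1) ≠ 1) : Witness F n q r := by
  classical
  set b : Fˣ := (ω ^ 2)⁻¹ with hb
  set d : Fin n → Fˣ := fun i => if i.val < 1 then b else if i.val < 3 then ω else 1 with hd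
  have hω1 : (ω : F) ≠ 1 := fun h => hnorm (by rw [h, one_pow])
  have hb1 : (b : F) ≠ 1 := fun h => by
    have h' : ω ^ 2 = 1 := inv_eq_one.1 (Units.ext h)
    have := Nat.le_of_dvd two_pos (hω.dvd_of_pow_eq_one 2 h')
    omega
  have hbω : (b : F) ≠ ω := fun h => by
    have h' : ω ^ 3 = 1 := by rw [pow_succ]; exact inv_eq_iff_mul_eq_one.1 (Units.ext h)
    have := Nat.le_of_dvd (by norm_num) (hω.dvd_of_pow_eq_one 3 h')
    omega
  have h1 := card_filter_lt (n := n) (k := 1) (by omega)
  have h3 := card_filter_lt (n := n) (k := 3) (by omega)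
  have hsplit : (Finset.univ.filter fun i : Fin n => ¬ i.val < 1 ∧ i.val < 3).card = 2 := by
    have := Finset.card_filter_add_card_filter_not (s := Finset.univ.filter fun i : Fin n => i.val < 3)
      (fun i : Fin n => i.val < 1)
    rw [Finset.filter_filter, Finset.filter_filter, h3] at this
    have e1 : (Finset.univ.filter fun i : Fin n => i.val < 3 ∧ i.val < 1) =
        Finset.univ.filter fun i : Fin n => i.val < 1 := Finset.filter_congr fun i _ => by omega
    have e2 : (Finset.univ.filter fun i : Fin n => i.val < 3 ∧ ¬ i.val < 1) =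
        Finset.univ.filter fun i : Fin n => ¬ i.val < 1 ∧ i.val < 3 := Finset.filter_congr fun i _ => by omega
    rw [e1, e2, h1] at this
    omega
  have hge : (Finset.univ.filter fun i : Fin n => ¬ i.val < 3).card = n - 3 := by
    have := Finset.card_filter_add_card_filter_not (s := (Finset.univ : Finset (Fin n))) (fun i => i.val < 3)
    rw [h3, Finset.card_univ, Fintype.card_fin] at this
    omega
  have hcnt : ∀ ν : F, (Finset.univ.filter fun i => (d i : F) = ν).card =
      if ν = (b : F) then 1 else if ν = (ω : F) then 2 else if ν = 1 then n - 3 else 0 := by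
    intro ν
    split_ifs with e1 e2 e3
    · refine Eq.trans (congrArg Finset.card (Finset.filter_congr fun i _ => ?_)) h1
      simp only [hd, e1]
      split_ifs with a1 a2 <;> simp [a1, hbω.symm, Ne.symm hb1]
    · refine Eq.trans (congrArg Finset.card (Finset.filter_congr fun i _ => ?_)) hsplit
      simp only [hd, e2]
      split_ifs with a1 a2
      · simp [hbω, a1]
      · simp [a1, a2]
      · simp [Ne.symm hω1, a2]
    · refine Eq.trans (congrArg Finset.card (Finset.filter_congr fun i _ => ?_)) hge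
      simp only [hd, e3]
      split_ifs with a1 a2
      · simp [hb1]; omega
      · simp [hω1, a2]
      · simp [a2]
    · rw [Finset.card_eq_zero, Finset.filter_eq_empty_iff]
      intro i _
      simp only [hd]
      split_ifs <;> simp [Ne.symm e1, Ne.symm e2, Ne.symm e3]
  have hωr : (ω : F) ^ r = 1 := by rw [← Units.val_pow_eq_pow_val, hω.pow_eq_one, Units.val_one]
  have hbr : (b : F) ^ r = 1 := by
    rw [← Units.val_pow_eq_pow_val, hb, inv_pow, ← pow_mul, mul_comm, pow_mul, hω.pow_eq_one, one_pow, inv_one,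
      Units.val_one]
  refine witness_of_diag (by omega) d ?_ (z := 1) (fun i => ?_) (i := ⟨1, by omega⟩) (j := ⟨3, by omega⟩) ?_ ?_
  · have e : (Finset.univ.filter fun x : Fin n => ¬ x.val < 1).filter (fun x => x.val < 3) =
        Finset.univ.filter fun i : Fin n => ¬ i.val < 1 ∧ i.val < 3 := Finset.filter_filter _ _ _
    simp only [hd, Finset.prod_ite, Finset.prod_const, h1, e, hsplit, pow_one, one_pow, mul_one]
    rw [hb, inv_mul_cancel]
  · simp only [hd]
    split_ifs <;> simp [hbr, hωr]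
  · simpa [hd] using fun h : ω = 1 => hω1 (by rw [h, Units.val_one])
  · refine not_covered_diag hF (by omega) d ω 1 (fun ν h => ?_) (fun ν h => ?_) (by simpa using hnorm)
    · rw [hcnt, hcnt, if_neg hbω.symm, if_pos rfl] at h
      split_ifs at h with e1 e2 e3
      all_goals first | exact e2 | omega
    · rw [hcnt, hcnt, Units.val_one, if_neg (Ne.symm hb1), if_neg (Ne.symm hω1), if_pos rfl] at h
      split_ifs at h with e1 e2 e3
      all_goals first | exact e3 | omega

/-- The field has the `r`-th roots of unity. -/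
theorem witness_split (hF : Fintype.card F = q ^ 2) (hr2 : r ≠ 2) (hrq1 : r ∣ q - 1) (hn : 3 ≤ n)
    (hgap : ¬ (n = 6 ∧ r = 3)) (hexc : ¬ ((r = 3 ∨ r = 5) ∧ n = r ∧ padicValNat r (q - 1) = 1)) :
    Witness F n q r := by
  have hr : r.Prime := Fact.out
  have hq := two_le_q hF
  have hrcard : r ∣ Fintype.card F - 1 := by
    rw [hF, show q ^ 2 - 1 = (q + 1) * (q - 1) by rw [← Nat.sq_sub_sq, one_pow]]
    exact Dvd.dvd.mul_left hrq1 _
  have hrnot : ¬ r ∣ q + 1 := fun h => by
    have h2 := Nat.dvd_sub h hrq1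
    rw [show q + 1 - (q - 1) = 2 by omega] at h2
    exact hr2 ((Nat.prime_dvd_prime_iff_eq hr Nat.prime_two).1 h2)
  have hcardu : Nat.card Fˣ = Fintype.card F - 1 := by rw [Nat.card_units, Nat.card_eq_fintype_card]
  have hval : padicValNat r (Fintype.card F - 1) = padicValNat r (q - 1) := by
    rw [hF, show q ^ 2 - 1 = (q + 1) * (q - 1) by rw [← Nat.sq_sub_sq, one_pow],
      padicValNat.mul (by omega) (by omega), padicValNat.eq_zero_of_not_dvd hrnot, zero_add]
  have hnorm : ∀ ω : Fˣ, IsPrimitiveRoot ω r → (ω : F) ^ (q + 1) ≠ 1 := fun ω hω h =>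
    hrnot (hω.dvd_of_pow_eq_one (q + 1) (Units.ext (by rw [Units.val_pow_eq_pow_val, h, Units.val_one])))
  by_cases hv : padicValNat r n < padicValNat r (q - 1)
  · set v := padicValNat r n with hvdef
    obtain ⟨a, ha⟩ := exists_primitive_of_dvd (F := F) (d := r ^ (v + 1))
      (hcardu ▸ dvd_trans (pow_dvd_pow r (hval ▸ hv)) pow_padicValNat_dvd)
    obtain ⟨o, ho⟩ : r ^ v ∣ n := pow_padicValNat_dvd
    have hro : ¬ r ∣ o := by
      rintro ⟨e, he⟩
      refine pow_succ_padicValNat_not_dvd (p := r) (n := n) (by omega) ⟨e, ?_⟩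
      rw [← hvdef, pow_succ, mul_assoc, ← he, ← ho]
    have hω : IsPrimitiveRoot (a ^ n) r := by
      rw [ho, pow_mul]
      exact (ha.pow (pow_pos hr.pos _) (pow_succ r v)).pow_of_coprime o ((hr.coprime_iff_not_dvd.2 hro).symm)
    refine witness_two hF (k := 1) one_pos (by omega) (by omega) (a * (a ^ n)⁻¹) a ?_ ?_ ?_
    · rw [pow_one, mul_comm a, mul_assoc, ← pow_succ', show n - 1 + 1 = n by omega, inv_mul_cancel]
    · rw [← Units.val_pow_eq_pow_val, ← Units.val_pow_eq_pow_val, mul_pow, inv_pow, hω.pow_eq_one, inv_one, mul_one]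
    · intro h
      refine hnorm (a ^ n) hω ?_
      have h2 : (a * (a ^ n)⁻¹) ^ (q + 1) = a ^ (q + 1) := Units.ext (by push_cast at h ⊢; exact h)
      rw [mul_pow, mul_eq_left, inv_pow, inv_eq_one] at h2
      rw [← Units.val_pow_eq_pow_val, h2, Units.val_one]
  · obtain ⟨ω, hω⟩ := exists_primitive_of_dvd (F := F) (d := r) (hcardu ▸ hrcard)
    have hpos : 1 ≤ padicValNat r (q - 1) := one_le_padicValNat_of_dvd (by omega) hrq1
    have hrn : r ∣ n := by
      by_contra h
      rw [padicValNat.eq_zero_of_not_dvd h] at hv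
      omega
    have hr3 : 3 ≤ r := by have := hr.two_le; omega
    have hnr : r ≤ n := Nat.le_of_dvd (by omega) hrn
    have hn_eq : n = r → padicValNat r (q - 1) = 1 := fun h => by
      rw [h, padicValNat_self] at hv
      omega
    by_cases hr3' : r = 3
    · subst hr3'
      obtain ⟨c, hc⟩ := hrn
      have hn3 : n ≠ 3 := fun h => hexc ⟨Or.inl rfl, h, hn_eq h⟩
      refine witness_two hF (k := 3) (by norm_num) (by omega) (by omega) ω 1 ?_ ?_ (by simpa using hnorm ω hω)
      · rw [hω.pow_eq_one, one_pow, one_mul]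
      · rw [← Units.val_pow_eq_pow_val, hω.pow_eq_one, Units.val_one, one_pow]
    · have hr5 : 5 ≤ r := by
        by_contra h
        have h4 : r = 4 := by omega
        exact absurd hr (by rw [h4]; decide)
      refine witness_three hF ?_ hr5 hω (hnorm ω hω)
      by_contra h
      have h5 : r = 5 := by omega
      subst h5
      exact hexc ⟨Or.inr rfl, by omega, hn_eq (by omega)⟩

end CfsgLib.Classical.PrimeDerangement.UnitaryForm
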