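import Cfsg.Agent.Classical.PrimeDerangement.UnitaryForm.Refute

/-!
The two exceptional degrees `n = r = 3, 5`: the eigenvalue exponents always pair off to a constant sum; and the
elements whose square is scalar.
-/

set_option autoImplicit false
set_option linter.unusedSectionVars false

namespace CfsgLib.Classical.PrimeDerangement.UnitaryForm

open Cfsg Matrix Module CfsgLib.Unitary

/-- The fifteen ways of splitting five points into a point and two pairs, as involutions. -/
def pairings : List (List (Fin 5)) :=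
  [[0,2,1,4,3],[0,3,4,1,2],[0,4,3,2,1],[2,1,0,4,3],[3,1,4,0,2],[4,1,3,2,0],[1,0,2,4,3],[3,4,2,0,1],[4,3,2,1,0],
   [1,0,4,3,2],[2,4,0,3,1],[4,2,1,3,0],[1,0,3,2,4],[2,3,0,1,4],[3,2,1,0,4]]

/-- The involution number `k`. -/
def pairing (k : Fin 15) (i : Fin 5) : Fin 5 := (pairings[k.val]!)[i.val]!

theorem pairing_pairing : ∀ k : Fin 15, ∀ i : Fin 5, pairing k (pairing k i) = i := by decide +kernel

theorem exists_pairing : ∀ a b c : ZMod 5, ∃ k : Fin 15, ∀ i : Fin 5,
    (![0, a, b, c, -(a + b + c)] : Fin 5 → ZMod 5) i +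
        (![0, a, b, c, -(a + b + c)] : Fin 5 → ZMod 5) (pairing k i) =
      (![0, a, b, c, -(a + b + c)] : Fin 5 → ZMod 5) 0 +
        (![0, a, b, c, -(a + b + c)] : Fin 5 → ZMod 5) (pairing k 0) := by
  decide +kernel

theorem exists_involution_five (e : Fin 5 → ZMod 5) (he : ∑ i, e i = 0) :
    ∃ σ : Equiv.Perm (Fin 5), (∀ i, σ (σ i) = i) ∧ ∀ i, e i + e (σ i) = e 0 + e (σ 0) := by
  obtain ⟨k, hk⟩ := exists_pairing (e 1 - e 0) (e 2 - e 0) (e 3 - e 0)
  have key : ∀ i, (![0, e 1 - e 0, e 2 - e 0, e 3 - e 0, -((e 1 - e 0) + (e 2 - e 0) + (e 3 - e 0))] :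
      Fin 5 → ZMod 5) i = e i - e 0 := by
    rw [Fin.sum_univ_five] at he
    intro i
    fin_cases i
    · simp
    · simp
    · simp
    · simp
    · show -((e 1 - e 0) + (e 2 - e 0) + (e 3 - e 0)) = e 4 - e 0
      have h5 : (5 : ZMod 5) = 0 := by decide
      linear_combination (e 0) * h5 - he
  refine ⟨⟨pairing k, pairing k, pairing_pairing k, pairing_pairing k⟩, pairing_pairing k, fun i => ?_⟩
  have h := hk i
  rw [key, key, key, key] at h
  show e i + e (pairing k i) = e 0 + e (pairing k 0)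
  linear_combination h

theorem exists_involution_three (e : Fin 3 → ZMod 3) (he : ∑ i, e i = 0) :
    ∃ σ : Equiv.Perm (Fin 3), (∀ i, σ (σ i) = i) ∧ ∀ i, e i + e (σ i) = e 0 + e (σ 0) := by
  rw [Fin.sum_univ_three] at he
  refine ⟨Equiv.swap 1 2, fun i => Equiv.swap_apply_self _ _ _, fun i => ?_⟩
  have h3 : (3 : ZMod 3) = 0 := by decide
  fin_cases i
  · rfl
  · show e 1 + e (Equiv.swap (1 : Fin 3) 2 1) = e 0 + e (Equiv.swap (1 : Fin 3) 2 0)
    rw [Equiv.swap_apply_left, Equiv.swap_apply_of_ne_of_ne (by decide) (by decide)]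
    linear_combination he - (e 0) * h3
  · show e 2 + e (Equiv.swap (1 : Fin 3) 2 2) = e 0 + e (Equiv.swap (1 : Fin 3) 2 0)
    rw [Equiv.swap_apply_right, Equiv.swap_apply_of_ne_of_ne (by decide) (by decide)]
    linear_combination he - (e 0) * h3

variable {F : Type*} [Field F] [Fintype F] {n q r : ℕ} [Fact r.Prime]

theorem covered_small (hF : Fintype.card F = q ^ 2) (hr : r = 3 ∨ r = 5) (hnr : n = r)
    (hv : padicValNat r (q - 1) = 1) {x : GL (Fin n) F} (hx : x ∈ Cfsg.Geo.specialLinear (Fin n) F) {z : F}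
    (hz : ((x ^ r : GL (Fin n) F) : Matrix (Fin n) (Fin n) F) = z • (1 : Matrix (Fin n) (Fin n) F)) :
    Covered q x := by
  classical
  have hrp : r.Prime := Fact.out
  have hq := two_le_q hF
  have hr2 : r ≠ 2 := by rcases hr with h | h <;> omega
  have hn : 0 < n := by rw [hnr]; exact hrp.pos
  have hrq1 : r ∣ q - 1 := by
    by_contra h
    rw [padicValNat.eq_zero_of_not_dvd h] at hv
    omega
  have hrnot : ¬ r ∣ q + 1 := fun h => by
    have h2 := Nat.dvd_sub h hrq1
    rw [show q + 1 - (q - 1) = 2 by omega] at h2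
    exact hr2 ((Nat.prime_dvd_prime_iff_eq hrp Nat.prime_two).1 h2)
  have hsq : q ^ 2 - 1 = (q + 1) * (q - 1) := by rw [← Nat.sq_sub_sq, one_pow]
  have hrcard : r ∣ Fintype.card F - 1 := by rw [hF, hsq]; exact Dvd.dvd.mul_left hrq1 _
  have hval : padicValNat r (Fintype.card F - 1) = 1 := by
    rw [hF, hsq, padicValNat.mul (by omega) (by omega), padicValNat.eq_zero_of_not_dvd hrnot, zero_add, hv]
  have hrF : (r : F) ≠ 0 := fun h => by
    obtain ⟨p, a, hp, hchar, -, hqa⟩ := exists_char hF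
    haveI := hchar
    obtain rfl := (Nat.prime_dvd_prime_iff_eq hp hrp).1 ((CharP.cast_eq_zero_iff F p r).1 h)
    have hpq : p ∣ q := by
      rcases Nat.eq_zero_or_pos a with rfl | ha
      · rw [hqa, pow_zero] at hq; omega
      · exact hqa ▸ dvd_pow_self p ha.ne'
    exact hp.not_dvd_one (by
      have h2 := Nat.dvd_sub hpq hrq1
      rwa [show q - (q - 1) = 1 by omega] at h2)
  have hi : orderOf (Fintype.card F : ZMod r) = 1 := by
    have h1 := (Semisimple.dvd_pow_sub_one_iff_orderOf_dvd (F := F) (r := r) 1).1 (by rwa [pow_one])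
    exact Nat.dvd_one.1 h1
  have hxd : (x : Matrix (Fin n) (Fin n) F).det = 1 := congrArg Units.val (MonoidHom.mem_ker.1 hx)
  obtain ⟨w, hw0, hwr⟩ : ∃ w : F, w ≠ 0 ∧ (w⁻¹ • Matrix.toLin' (x : Matrix (Fin n) (Fin n) F)) ^ r = 1 := by
    refine (Semisimple.twist_or_dvd (r := r) hi hn (z := z) (f := Matrix.toLin' (x : Matrix (Fin n) (Fin n) F))
      (by rw [LinearMap.det_toLin', hxd]) ?_).resolve_right fun h => h.2.2 ⟨?_, fun e => absurd e hr2⟩
    · rw [← Matrix.toLin'_pow, ← Units.val_pow_eq_pow_val, hz, map_smul, Matrix.toLin'_one]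
      rfl
    · rw [hval, hnr, padicValNat_self]
  obtain ⟨ζ, hζ⟩ := exists_primitive_of_dvd (F := F) (d := r)
    (by rw [Nat.card_units, Nat.card_eq_fintype_card]; exact hrcard)
  set wU : Fˣ := Units.mk0 w hw0
  have hxw : (x : Matrix (Fin n) (Fin n) F) ^ r = ((wU : F) ^ r) • (1 : Matrix (Fin n) (Fin n) F) := by
    rw [_root_.smul_pow, ← Matrix.toLin'_pow, inv_pow, inv_smul_eq_iff₀ (pow_ne_zero r hw0)] at hwr
    refine Matrix.toLin'.injective ?_
    rw [hwr, map_smul, Matrix.toLin'_one]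
    rfl
  obtain ⟨P, -, e, he⟩ := (linearAmbient F n).eigen r ζ wU hζ hrp.one_lt hrF trivial trivial x trivial hxw
  have hdet : wU ^ n * ζ ^ (∑ i, e i) = 1 := by
    have h1 : Matrix.GeneralLinearGroup.det x = 1 := MonoidHom.mem_ker.1 hx
    have h := congrArg Matrix.GeneralLinearGroup.det he
    rw [map_mul, map_mul, h1, one_mul, det_diagU, Finset.prod_mul_distrib, Finset.prod_const,
      Finset.prod_pow_eq_pow_sum, Finset.card_univ, Fintype.card_fin] at h
    exact mul_eq_left.1 h.symm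
  have hwU : wU ^ r = 1 := by
    have h1 : (wU ^ r) ^ r = 1 := by
      have h2 := congrArg (fun u : Fˣ => u ^ r) hdet
      simp only [one_pow, mul_pow, ← pow_mul ζ] at h2
      rw [mul_comm (∑ i, e i) r, pow_mul ζ, hζ.pow_eq_one, one_pow, mul_one] at h2
      rwa [show (wU ^ n) ^ r = (wU ^ r) ^ r by rw [hnr]] at h2
    rw [← pow_mul] at h1
    have hg : Nat.gcd (r * r) (Fintype.card F - 1) ∣ r := by
      have h2 : Nat.gcd (r * r) (Fintype.card F - 1) ∣ r ^ 2 := by rw [sq]; exact Nat.gcd_dvd_left _ _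
      obtain ⟨j, hj, hje⟩ := (Nat.dvd_prime_pow hrp).1 h2
      rw [hje]
      have h3 : r ^ j ∣ Fintype.card F - 1 := hje ▸ Nat.gcd_dvd_right _ _
      have := (padicValNat_dvd_iff_le (by have := Fintype.one_lt_card (α := F); omega)).1 h3
      rw [hval] at this
      calc r ^ j ∣ r ^ 1 := pow_dvd_pow r this
        _ = r := pow_one r
    obtain ⟨d, hd⟩ := hg
    have h4 : wU ^ (Fintype.card F - 1) = 1 := by
      have := pow_card_eq_one' (x := wU)
      rwa [Nat.card_units, Nat.card_eq_fintype_card] at this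
    rw [hd, pow_mul, pow_gcd_eq_one.2 ⟨h1, h4⟩, one_pow]
  have hsum : ((∑ i, e i : ℕ) : ZMod r) = 0 := by
    rw [ZMod.natCast_eq_zero_iff]
    refine hζ.dvd_of_pow_eq_one _ ?_
    rwa [show wU ^ n = wU ^ r by rw [hnr], hwU, one_mul] at hdet
  obtain ⟨σ, hσ, hc⟩ : ∃ σ : Equiv.Perm (Fin n), (∀ i, σ (σ i) = i) ∧
      ∀ i, (e i : ZMod r) + (e (σ i) : ZMod r) = (e ⟨0, hn⟩ : ZMod r) + (e (σ ⟨0, hn⟩) : ZMod r) := by
    push_cast at hsum
    subst hnr
    rcases hr with rfl | rfl
    · exact exists_involution_three (fun i => (e i : ZMod 3)) hsum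
    · exact exists_involution_five (fun i => (e i : ZMod 5)) hsum
  have hq1 : (ζ : F) ^ q = ζ := by
    obtain ⟨k, hk⟩ := hrq1
    rw [show q = r * k + 1 by omega, pow_succ, pow_mul, ← Units.val_pow_eq_pow_val, hζ.pow_eq_one, Units.val_one,
      one_pow, one_mul]
  have hw1 : ((wU : F)) ^ q = wU := by
    obtain ⟨k, hk⟩ := hrq1
    rw [show q = r * k + 1 by omega, pow_succ, pow_mul, ← Units.val_pow_eq_pow_val, hwU, Units.val_one, one_pow,
      one_mul]
  refine covered_paired hF hn he σ hσ (c := (wU : F) * wU * (ζ : F) ^ (e ⟨0, hn⟩ + e (σ ⟨0, hn⟩))) fun i => ?_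
  simp only [Units.val_mul, Units.val_pow_eq_pow_val]
  rw [mul_pow, hw1, ← pow_mul, mul_comm (e (σ i)) q, pow_mul, hq1, mul_mul_mul_comm, ← pow_add]
  congr 1
  rw [← Units.val_pow_eq_pow_val, ← Units.val_pow_eq_pow_val]
  congr 1
  rw [pow_eq_pow_iff_modEq, ← hζ.eq_orderOf, ← ZMod.natCast_eq_natCast_iff]
  push_cast
  exact hc i

/-- Elements with scalar square are covered for small two-part of `n`. -/
theorem covered_two_odd (hF : Fintype.card F = q ^ 2) (hn : 0 < n) (h2 : (2 : F) ≠ 0)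
    (hv : padicValNat 2 n ≤ padicValNat 2 (Fintype.card F - 1)) {x : GL (Fin n) F}
    (hx : x ∈ Cfsg.Geo.specialLinear (Fin n) F) {z : F}
    (hz : ((x ^ 2 : GL (Fin n) F) : Matrix (Fin n) (Fin n) F) = z • (1 : Matrix (Fin n) (Fin n) F)) :
    Covered q x := by
  classical
  haveI : Fact (Nat.Prime 2) := ⟨Nat.prime_two⟩
  have hxd : (x : Matrix (Fin n) (Fin n) F).det = 1 := congrArg Units.val (MonoidHom.mem_ker.1 hx)
  have hodd : Fintype.card F % 2 = 1 := FiniteField.odd_card_of_char_ne_two fun h => h2 (by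
    haveI := ringChar.charP F
    exact_mod_cast (CharP.cast_eq_zero_iff F (ringChar F) 2).2 (h ▸ dvd_rfl))
  have hi : orderOf (Fintype.card F : ZMod 2) = 1 := by
    have h1 := (Semisimple.dvd_pow_sub_one_iff_orderOf_dvd (F := F) (r := 2) 1).1 (by rw [pow_one]; omega)
    exact Nat.dvd_one.1 h1
  have h4 : Fintype.card F % 4 = 1 := by
    rw [hF] at hodd ⊢
    rcases Nat.even_or_odd q with ⟨k, hk⟩ | ⟨k, hk⟩
    · rw [hk] at hodd; ring_nf at hodd; omega
    · rw [hk]; ring_nf; omega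
  obtain ⟨w, hw0, hwr⟩ : ∃ w : F, w ≠ 0 ∧ (w⁻¹ • Matrix.toLin' (x : Matrix (Fin n) (Fin n) F)) ^ 2 = 1 := by
    refine (Semisimple.twist_or_dvd (r := 2) hi hn (z := z) (f := Matrix.toLin' (x : Matrix (Fin n) (Fin n) F))
      (by rw [LinearMap.det_toLin', hxd]) ?_).resolve_right fun h => h.2.2 ⟨hv, fun _ _ => h4⟩
    rw [← Matrix.toLin'_pow, ← Units.val_pow_eq_pow_val, hz, map_smul, Matrix.toLin'_one]
    rfl
  set wU : Fˣ := Units.mk0 w hw0
  have hxw : (x : Matrix (Fin n) (Fin n) F) ^ 2 = ((wU : F) ^ 2) • (1 : Matrix (Fin n) (Fin n) F) := by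
    rw [_root_.smul_pow, ← Matrix.toLin'_pow, inv_pow, inv_smul_eq_iff₀ (pow_ne_zero 2 hw0)] at hwr
    refine Matrix.toLin'.injective ?_
    rw [hwr, map_smul, Matrix.toLin'_one]
    rfl
  have hζ : IsPrimitiveRoot (-1 : Fˣ) 2 := by
    refine IsPrimitiveRoot.mk_of_lt _ two_pos (by simp) fun l hl0 hl2 => ?_
    obtain rfl : l = 1 := by omega
    intro h
    rw [pow_one] at h
    have h' := congrArg Units.val h
    simp only [Units.val_neg, Units.val_one] at h'
    exact h2 (by linear_combination -h')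
  obtain ⟨P, -, e, he⟩ := (linearAmbient F n).eigen 2 (-1) wU hζ one_lt_two (by exact_mod_cast h2) trivial trivial x
    trivial hxw
  refine covered_paired hF hn he 1 (fun i => rfl) (c := w ^ (q + 1)) fun i => ?_
  rw [Equiv.Perm.one_apply, ← pow_succ', Units.val_mul, Units.val_pow_eq_pow_val, Units.val_neg, Units.val_one,
    mul_pow, ← pow_mul, mul_comm (e i), pow_mul, neg_one_pow_succ hF, one_pow, mul_one]
  rfl

/-- A witness with non-square scalar square. -/
theorem witness_two_part (hF : Fintype.card F = q ^ 2) (hn : 0 < n) (h2 : (2 : F) ≠ 0)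
    (hv : ¬ padicValNat 2 n ≤ padicValNat 2 (Fintype.card F - 1)) : Witness F n q 2 := by
  classical
  haveI : Fact (Nat.Prime 2) := ⟨Nat.prime_two⟩
  have hodd : Fintype.card F % 2 = 1 := FiniteField.odd_card_of_char_ne_two fun h => h2 (by
    haveI := ringChar.charP F
    exact_mod_cast (CharP.cast_eq_zero_iff F (ringChar F) 2).2 (h ▸ dvd_rfl))
  have hi : orderOf (Fintype.card F : ZMod 2) = 1 := by
    have h1 := (Semisimple.dvd_pow_sub_one_iff_orderOf_dvd (F := F) (r := 2) 1).1 (by rw [pow_one]; omega)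
    exact Nat.dvd_one.1 h1
  obtain ⟨-, X, z, hXz, hXns, hdims⟩ :=
    Semisimple.exists_sl_dvd (F := F) (r := 2) hi hn (by exact_mod_cast h2) (fun h => hv h.1)
  set x : GL (Fin n) F := Matrix.SpecialLinearGroup.toGL X with hxdef
  have hxv : (x : Matrix (Fin n) (Fin n) F) = (X : Matrix (Fin n) (Fin n) F) := rfl
  have hxz : ((x ^ 2 : GL (Fin n) F) : Matrix (Fin n) (Fin n) F) = z • (1 : Matrix (Fin n) (Fin n) F) := by
    rw [hxdef, ← map_pow]; exact hXz
  refine ⟨x, ?_, ⟨z, hxz⟩, hXns, not_covered_nonsquare hF hn h2 hxz fun b hb => ?_⟩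
  · rw [Cfsg.Geo.specialLinear, MonoidHom.mem_ker]
    exact Units.ext X.2
  -- a square root of `z` gives an invariant line
  set T := Matrix.toLin' (X : Matrix (Fin n) (Fin n) F) with hT
  have hTT : ∀ v, T (T v) = (b ^ 2) • v := fun v => by
    rw [hT, Matrix.toLin'_apply, Matrix.toLin'_apply, Matrix.mulVec_mulVec]
    have h : (X : Matrix (Fin n) (Fin n) F) * (X : Matrix (Fin n) (Fin n) F) = z • (1 : Matrix (Fin n) (Fin n) F) := by
      rw [← sq, ← Matrix.SpecialLinearGroup.coe_pow]; exact hXz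
    rw [h, Matrix.smul_mulVec, Matrix.one_mulVec, hb]
  obtain ⟨v, hv0, c, hc⟩ : ∃ v : Fin n → F, v ≠ 0 ∧ ∃ c : F, T v = c • v := by
    set u : Fin n → F := Pi.single ⟨0, hn⟩ 1 with hu
    by_cases h : T u + b • u = 0
    · exact ⟨u, by simp [hu], -b, by rw [neg_smul]; exact eq_neg_of_add_eq_zero_left h⟩
    · exact ⟨T u + b • u, h, b, by rw [map_add, map_smul, hTT, smul_add, smul_smul, ← sq, add_comm]⟩
  have h1 := hdims (Submodule.span F {v}) (by
    rw [Submodule.map_span_le]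
    rintro _ rfl
    rw [hc]
    exact Submodule.smul_mem _ _ (Submodule.mem_span_singleton_self _))
  rw [finrank_span_singleton hv0] at h1
  omega

end CfsgLib.Classical.PrimeDerangement.UnitaryForm
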